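import Mathlib
import Cfsg.Agent.Lib.Helper16.BRStmt2

/-!
# Brauer's theorem (S0996), piece CYC2: a perfect group has no cyclic Sylow `2`-subgroup
-/

set_option autoImplicit false
set_option linter.style.haveILetI false

namespace Cfsg.Agent.Lib.Helper33.BGCYC2

universe u

/-- A perfect finite group has no nontrivial Sylow `p`-subgroup `P` with `N(P) ≤ C(P)`. -/
theorem card_eq_one_of_normalizer_le {G : Type u} [Group G] [Finite G] (hperf : commutator G = ⊤)
    (p : ℕ) [Fact p.Prime] (P : Sylow p G)
    (hle : Subgroup.normalizer ((P : Subgroup G) : Set G) ≤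
      Subgroup.centralizer ((P : Subgroup G) : Set G)) :
    Nat.card (P : Subgroup G) = 1 := by
  have hcompl := MonoidHom.ker_transferSylow_isComplement' P hle
  have hker : (MonoidHom.transferSylow P hle).ker = ⊤ := by
    rw [eq_top_iff, ← hperf, commutator_def, Subgroup.commutator_le]
    intro a _ b _
    rw [MonoidHom.mem_ker, map_commutatorElement, commutatorElement_eq_one_iff_commute]
    apply Subtype.ext
    exact hle (Subgroup.le_normalizer ((MonoidHom.transferSylow P hle) b).2)
      ((MonoidHom.transferSylow P hle) a) ((MonoidHom.transferSylow P hle) a).2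
  have h1 := hcompl.card_mul_card
  rw [hker, Subgroup.card_top] at h1
  have hpos : 0 < Nat.card G := Nat.card_pos
  have h2 : Nat.card G * Nat.card (P : Subgroup G) = Nat.card G * 1 := by rw [h1, mul_one]
  exact Nat.eq_of_mul_eq_mul_left hpos h2

theorem main : Cfsg.Agent.Lib.Helper16.BRStmt2.Cyc2.{u} := by
  intro G _ _ hperf y h2o hodd
  haveI : Fact (Nat.Prime 2) := ⟨Nat.prime_two⟩
  have hopos : 0 < orderOf y := orderOf_pos y
  have hodvd : orderOf y ∣ Nat.card G := orderOf_dvd_natCard y
  obtain ⟨q, hq⟩ := hodvd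
  have hq' : Nat.card G / orderOf y = q := by
    rw [hq, Nat.mul_div_cancel_left _ hopos]
  rw [hq'] at hodd
  have hGpos : 0 < Nat.card G := Nat.card_pos
  have hqpos : 0 < q := by
    rcases Nat.eq_zero_or_pos q with h | h
    · rw [h, mul_zero] at hq; omega
    · exact h
  -- the 2-part
  set k := (orderOf y).factorization 2 with hk
  have hk1 : 1 ≤ k := by
    rw [hk]
    exact (Nat.Prime.dvd_iff_one_le_factorization Nat.prime_two hopos.ne').mp h2o
  have hkdvd : 2 ^ k ∣ orderOf y := Nat.ordProj_dvd (orderOf y) 2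
  have hGk : (Nat.card G).factorization 2 = k := by
    rw [hq, Nat.factorization_mul hopos.ne' hqpos.ne', Finsupp.add_apply,
      Nat.factorization_eq_zero_of_not_dvd hodd, add_zero]
  set s := y ^ (orderOf y / 2 ^ k) with hs
  have hso : orderOf s = 2 ^ k := orderOf_pow_orderOf_div hopos.ne' hkdvd
  have hscard : Nat.card (Subgroup.zpowers s) = 2 ^ k := by rw [Nat.card_zpowers, hso]
  have hsp : IsPGroup 2 (Subgroup.zpowers s) := IsPGroup.of_card hscard
  obtain ⟨P, hsP⟩ := hsp.exists_le_sylow
  have hPcard : Nat.card (P : Subgroup G) = 2 ^ k := by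
    rw [P.card_eq_multiplicity, hGk]
  have hPeq : Subgroup.zpowers s = (P : Subgroup G) :=
    Subgroup.eq_of_le_of_card_ge hsP (by rw [hPcard, hscard])
  haveI hcyc : IsCyclic (P : Subgroup G) := by
    rw [← hPeq]; infer_instance
  -- `|N : C|` divides `φ(2 ^ k) = 2 ^ (k - 1)`
  have key := Subgroup.card_dvd_of_injective _
    (QuotientGroup.kerLift_injective (P : Subgroup G).normalizerMonoidHom)
  rw [Subgroup.normalizerMonoidHom_ker, ← Subgroup.index, ← Subgroup.relIndex] at key
  rw [IsCyclic.card_mulAut (↥(P : Subgroup G)), hPcard] at key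
  have hk' : k = (k - 1) + 1 := by omega
  rw [hk', Nat.totient_prime_pow_succ Nat.prime_two] at key
  have key2 : (Subgroup.centralizer ((P : Subgroup G) : Set G)).relIndex
      (Subgroup.normalizer ((P : Subgroup G) : Set G)) ∣ 2 ^ (k - 1) := by
    simpa using key
  -- `|N : C|` is odd
  have hPC : (P : Subgroup G) ≤ Subgroup.centralizer ((P : Subgroup G) : Set G) := by
    intro a ha
    rw [Subgroup.mem_centralizer_iff]
    intro b hb
    have hcomm : ∀ a b : (P : Subgroup G), a * b = b * a := by
      intro a b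
      exact (IsCyclic.isMulCommutative (α := (P : Subgroup G))).is_comm.comm a b
    have := congrArg Subtype.val (hcomm ⟨b, hb⟩ ⟨a, ha⟩)
    simpa using this
  have hCN : Subgroup.centralizer ((P : Subgroup G) : Set G) ≤
      Subgroup.normalizer ((P : Subgroup G) : Set G) := Subgroup.centralizer_le_normalizer _
  have hrel := Subgroup.relIndex_mul_relIndex (P : Subgroup G)
    (Subgroup.centralizer ((P : Subgroup G) : Set G))
    (Subgroup.normalizer ((P : Subgroup G) : Set G)) hPC hCN
  have hrel2 : (P : Subgroup G).relIndex (Subgroup.normalizer ((P : Subgroup G) : Set G)) ∣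
      (P : Subgroup G).index := Subgroup.relIndex_dvd_index_of_le Subgroup.le_normalizer
  have hidx : ¬ 2 ∣ (P : Subgroup G).index := P.not_dvd_index
  have hodd2 : ¬ 2 ∣ (Subgroup.centralizer ((P : Subgroup G) : Set G)).relIndex
      (Subgroup.normalizer ((P : Subgroup G) : Set G)) := by
    intro h
    apply hidx
    refine dvd_trans (dvd_trans h ?_) hrel2
    rw [← hrel]
    exact dvd_mul_left _ _
  have hone : (Subgroup.centralizer ((P : Subgroup G) : Set G)).relIndex
      (Subgroup.normalizer ((P : Subgroup G) : Set G)) = 1 := by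
    obtain ⟨j, hj, hj2⟩ := (Nat.dvd_prime_pow Nat.prime_two).mp key2
    rcases Nat.eq_zero_or_pos j with h | h
    · rw [hj2, h, pow_zero]
    · exfalso
      apply hodd2
      rw [hj2]
      exact dvd_pow_self 2 h.ne'
  have hle : Subgroup.normalizer ((P : Subgroup G) : Set G) ≤
      Subgroup.centralizer ((P : Subgroup G) : Set G) := Subgroup.relIndex_eq_one.mp hone
  have hP1 := card_eq_one_of_normalizer_le hperf 2 P hle
  rw [hPcard] at hP1
  have : 2 ^ 1 ≤ 2 ^ k := Nat.pow_le_pow_right (by norm_num) hk1
  omega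

end Cfsg.Agent.Lib.Helper33.BGCYC2
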