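import Mathlib
import Cfsg.Agent.Lib.Helper16.BRStmt2

/-!
# Brauer's theorem (S0996), piece S1: a self-centralizing element of order `p` generates a
Sylow `p`-subgroup
-/

set_option autoImplicit false
set_option linter.style.haveILetI false

namespace Cfsg.Agent.Lib.Helper33.BGS1

universe u

theorem main : Cfsg.Agent.Lib.Helper16.BRStmt2.SylowOfElt.{u} := by
  intro G _ _ p _ z hz hC
  have hp : p.Prime := Fact.out
  have hz1 : z ≠ 1 := by
    rintro rfl
    rw [orderOf_one] at hz
    exact hp.one_lt.ne hz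
  have hcz : Nat.card (Subgroup.zpowers z) = p := by rw [Nat.card_zpowers, hz]
  have hpg : IsPGroup p (Subgroup.zpowers z) :=
    IsPGroup.of_card (n := 1) (by rw [hcz, pow_one])
  obtain ⟨P0, hle⟩ := hpg.exists_le_sylow
  have hzP : z ∈ (P0 : Subgroup G) := hle (Subgroup.mem_zpowers z)
  haveI : Nontrivial (P0 : Subgroup G) :=
    ⟨⟨⟨z, hzP⟩, 1, fun h => hz1 (by simpa using congrArg Subtype.val h)⟩⟩
  haveI : Nontrivial (Subgroup.center (P0 : Subgroup G)) := P0.isPGroup'.center_nontrivial
  obtain ⟨c, hc⟩ := exists_ne (1 : Subgroup.center (P0 : Subgroup G))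
  -- `c'` is a nontrivial element commuting with all of `P0`
  have hc1 : (((c : (P0 : Subgroup G)) : G)) ≠ 1 := by
    intro h
    apply hc
    apply Subtype.ext
    apply Subtype.ext
    exact h
  have hcomm : ∀ w ∈ (P0 : Subgroup G), w * ((c : (P0 : Subgroup G)) : G)
      = ((c : (P0 : Subgroup G)) : G) * w := by
    intro w hw
    have h1 := Subgroup.mem_center_iff.mp c.2 ⟨w, hw⟩
    exact congrArg Subtype.val h1
  have hcC : ((c : (P0 : Subgroup G)) : G) ∈ Subgroup.zpowers z := by
    rw [← hC, Subgroup.mem_centralizer_iff]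
    intro w hw
    rw [Set.mem_singleton_iff] at hw
    rw [hw]
    exact hcomm z hzP
  -- `zpowers c' = zpowers z`
  have hle2 : Subgroup.zpowers ((c : (P0 : Subgroup G)) : G) ≤ Subgroup.zpowers z :=
    Subgroup.zpowers_le.mpr hcC
  have hoc : orderOf ((c : (P0 : Subgroup G)) : G) = p := by
    have h1 : orderOf ((c : (P0 : Subgroup G)) : G) ∣ p := by
      have := Subgroup.orderOf_dvd_natCard _ hcC
      rwa [hcz] at this
    rcases (Nat.dvd_prime hp).mp h1 with h2 | h2
    · exact absurd (orderOf_eq_one_iff.mp h2) hc1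
    · exact h2
  have heq : Subgroup.zpowers ((c : (P0 : Subgroup G)) : G) = Subgroup.zpowers z :=
    Subgroup.eq_of_le_of_card_ge hle2 (by rw [hcz, Nat.card_zpowers, hoc])
  have hzc : z ∈ Subgroup.zpowers ((c : (P0 : Subgroup G)) : G) := by
    rw [heq]; exact Subgroup.mem_zpowers z
  obtain ⟨k, hk⟩ := Subgroup.mem_zpowers_iff.mp hzc
  -- `P0 ≤ C(z) = zpowers z`
  have hP0le : (P0 : Subgroup G) ≤ Subgroup.zpowers z := by
    intro w hw
    rw [← hC, Subgroup.mem_centralizer_iff]
    intro v hv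
    rw [Set.mem_singleton_iff] at hv
    rw [hv, ← hk]
    have h1 : Commute w ((c : (P0 : Subgroup G)) : G) := hcomm w hw
    exact (h1.zpow_right k).eq.symm
  exact ⟨P0, le_antisymm hP0le hle⟩

end Cfsg.Agent.Lib.Helper33.BGS1
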