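import Mathlib
import Cfsg.Agent.Lib.Helper16.BRStmt2
import Cfsg.Agent.Lib.Helper85.BRLoc
import Cfsg.Agent.Lib.Helper75.SelfCentCore
import Cfsg.Agent.Lib.Helper33.BRW2

/-!
# Brauer's theorem (S0996), piece S2: few Sylow `p`-subgroups force `O_{p'}(G) = 1`
-/

set_option autoImplicit false
set_option linter.style.haveILetI false

namespace Cfsg.Agent.Lib.Helper33.BGS2

open Cfsg

universe u

/-- An element `x` with `x ^ r = 1` (`r` prime) normalizing a subgroup `K` with
`|K| ≢ 1 mod r` centralizes a non-identity element of `K`. -/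
theorem exists_fixed {G : Type u} [Group G] [Finite G] (K : Subgroup G) (x : G)
    (hx : x ∈ Subgroup.normalizer (K : Set G)) (r : ℕ) [Fact r.Prime] (hxr : x ^ r = 1)
    (hr : ¬ Nat.card K ≡ 1 [MOD r]) : ∃ y ∈ K, y ≠ 1 ∧ x * y * x⁻¹ = y := by
  classical
  haveI : Fintype K := Fintype.ofFinite K
  let f : Function.End K := fun y => ⟨x * y * x⁻¹, (Subgroup.mem_normalizer_iff.mp hx y).mp y.2⟩
  have hf1 : ∀ y : K, ((f y : K) : G) = x * y * x⁻¹ := fun y => rfl
  have hpow : ∀ k : ℕ, ∀ y : K, (((f ^ k) y : K) : G) = x ^ k * y * (x ^ k)⁻¹ := by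
    intro k
    induction k with
    | zero => intro y; simp [Function.End.one_def]
    | succ k ih =>
      intro y
      have h1 : (f ^ (k + 1)) y = f ((f ^ k) y) := by rw [pow_succ']; rfl
      rw [h1, hf1, ih, pow_succ']
      group
  have hf : f ^ r ^ 1 = 1 := by
    funext y
    apply Subtype.ext
    rw [pow_one, hpow r y, hxr]
    simp [Function.End.one_def]
  have h := Equiv.Perm.card_fixedPoints_modEq (p := r) (n := 1) hf
  by_contra hcon
  push Not at hcon
  apply hr
  have h1 : Fintype.card (Function.fixedPoints f) = 1 := by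
    rw [Fintype.card_eq_one_iff]
    refine ⟨⟨1, ?_⟩, ?_⟩
    · show f 1 = 1
      apply Subtype.ext
      rw [hf1]
      simp
    · rintro ⟨y, hy⟩
      apply Subtype.ext
      show y = 1
      by_contra hy1
      have hy' : f y = y := hy
      have h2 := congrArg Subtype.val hy'
      rw [hf1] at h2
      exact hcon (y : G) y.2 (fun h3 => hy1 (Subtype.ext h3)) h2
  rw [h1, ← Nat.card_eq_fintype_card] at h
  exact h

theorem main : Cfsg.Agent.Lib.Helper16.BRStmt2.CoreTriv.{u} := by
  intro G _ _ hperf p _ P hPc hCP hlt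
  have hp : p.Prime := Fact.out
  by_contra hK
  have hKn : (pPrimeCore p G).Normal := inferInstance
  have hKnd : ¬ p ∣ Nat.card (pPrimeCore p G) :=
    Cfsg.Agent.Lib.Helper75.SelfCentCore.pPrimeCore_not_dvd G hp
  have hcop : Nat.Coprime (Nat.card (P : Subgroup G)) (Nat.card (pPrimeCore p G)) := by
    rw [hPc]; exact (Nat.Prime.coprime_iff_not_dvd hp).mpr hKnd
  have hPK : (P : Subgroup G) ⊓ pPrimeCore p G = ⊥ := (Subgroup.disjoint_of_coprime_natCard hcop).eq_bot
  have hPK' : ∀ w : G, w ∈ (P : Subgroup G) → w ∈ pPrimeCore p G → w = 1 := by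
    intro w h1 h2
    have : w ∈ (P : Subgroup G) ⊓ pPrimeCore p G := Subgroup.mem_inf.mpr ⟨h1, h2⟩
    rwa [hPK, Subgroup.mem_bot] at this
  -- (a) `N ∩ K = 1`
  have hNK : ∀ x : G, x ∈ Subgroup.normalizer ((P : Subgroup G) : Set G) →
      x ∈ pPrimeCore p G → x = 1 := by
    intro x hxN hxK
    have hxC : x ∈ Subgroup.centralizer ((P : Subgroup G) : Set G) := by
      rw [Subgroup.mem_centralizer_iff]
      intro w hw
      have h1 : x * w * x⁻¹ * w⁻¹ = 1 := by
        apply hPK'
        · exact Subgroup.mul_mem _ ((Subgroup.mem_normalizer_iff.mp hxN w).mp hw)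
            (Subgroup.inv_mem _ hw)
        · have h2 : x * w * x⁻¹ * w⁻¹ = x * (w * x⁻¹ * w⁻¹) := by group
          rw [h2]
          exact Subgroup.mul_mem _ hxK (hKn.conj_mem _ (Subgroup.inv_mem _ hxK) w)
      calc w * x = (x * w * x⁻¹ * w⁻¹)⁻¹ * (x * w) := by group
        _ = x * w := by rw [h1, inv_one, one_mul]
    rw [hCP] at hxC
    exact hPK' x hxC hxK
  -- (b) `|K| ≡ 1 mod p`
  have hKmod : Nat.card (pPrimeCore p G) ≡ 1 [MOD p] := by
    by_contra hcon
    haveI hcyc : IsCyclic (P : Subgroup G) := isCyclic_of_prime_card hPc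
    obtain ⟨g, hg⟩ := hcyc.exists_generator
    have hgp : (g : G) ^ p = 1 := by
      have h0 : orderOf g ∣ p := by
        have h00 := orderOf_dvd_natCard g
        rwa [hPc] at h00
      have h1 : g ^ p = 1 := orderOf_dvd_iff_pow_eq_one.mp h0
      have h2 := congrArg Subtype.val h1
      simpa using h2
    obtain ⟨y, hyK, hy1, hgy⟩ := exists_fixed (pPrimeCore p G) (g : G)
      (by rw [Subgroup.normalizer_eq_top]; exact Subgroup.mem_top _) p hgp hcon
    have hyC : y ∈ Subgroup.centralizer ((P : Subgroup G) : Set G) := by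
      rw [Subgroup.mem_centralizer_iff]
      intro w hw
      obtain ⟨k, hk⟩ := Subgroup.mem_zpowers_iff.mp (hg ⟨w, hw⟩)
      have hk' : (g : G) ^ k = w := by
        have := congrArg Subtype.val hk
        simpa using this
      have hc : Commute (g : G) y := by
        show (g : G) * y = y * g
        calc (g : G) * y = (g * y * (g : G)⁻¹) * g := by group
          _ = y * g := by rw [hgy]
      rw [← hk']
      exact (hc.zpow_left k).eq
    rw [hCP] at hyC
    exact hy1 (hPK' y hyC hyK)
  have hKcard : p + 1 ≤ Nat.card (pPrimeCore p G) := by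
    have h1 : Nat.card (pPrimeCore p G) ≠ 1 := fun h => hK (Subgroup.card_eq_one.mp h)
    have h2 : 0 < Nat.card (pPrimeCore p G) := Nat.card_pos
    have h3 : Nat.card (pPrimeCore p G) % p = 1 := by
      have := hKmod
      unfold Nat.ModEq at this
      rw [this, Nat.mod_eq_of_lt hp.one_lt]
    by_contra hcon
    push Not at hcon
    rcases Nat.lt_or_ge (Nat.card (pPrimeCore p G)) p with h4 | h4
    · rw [Nat.mod_eq_of_lt h4] at h3
      exact h1 h3
    · have h5 : Nat.card (pPrimeCore p G) = p := by omega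
      rw [h5, Nat.mod_self] at h3
      omega
  -- the quotient
  have hperfQ : commutator (G ⧸ pPrimeCore p G) = ⊤ :=
    Cfsg.Agent.Lib.Helper33.BRW2.perfect_quotient _ hperf
  have hsurj : Function.Surjective (QuotientGroup.mk' (pPrimeCore p G)) :=
    QuotientGroup.mk'_surjective _
  have hGK : Nat.card G = Nat.card (G ⧸ pPrimeCore p G) * Nat.card (pPrimeCore p G) :=
    Subgroup.card_eq_card_quotient_mul_card_subgroup (pPrimeCore p G)
  have hKpos : 0 < Nat.card (pPrimeCore p G) := Nat.card_pos
  have hQpos : 0 < Nat.card (G ⧸ pPrimeCore p G) := Nat.card_pos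
  have hP'c : Nat.card ((P.mapSurjective hsurj : Sylow p (G ⧸ pPrimeCore p G)) :
      Subgroup (G ⧸ pPrimeCore p G)) = p := by
    have h1 := (P.mapSurjective hsurj).card_eq_multiplicity
    have h3 := P.card_eq_multiplicity
    rw [hPc] at h3
    have hf1 : (Nat.card G).factorization p = 1 := by
      have := Nat.pow_right_injective hp.two_le (show p ^ 1 = p ^ (Nat.card G).factorization p by
        rw [pow_one]; exact h3)
      exact this.symm
    have hf2 : (Nat.card (pPrimeCore p G)).factorization p = 0 :=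
      Nat.factorization_eq_zero_of_not_dvd hKnd
    have hf3 : (Nat.card (G ⧸ pPrimeCore p G)).factorization p = 1 := by
      have h4 : (Nat.card G).factorization p
          = (Nat.card (G ⧸ pPrimeCore p G) * Nat.card (pPrimeCore p G)).factorization p := by
        rw [← hGK]
      rw [Nat.factorization_mul hQpos.ne' hKpos.ne', Finsupp.add_apply, hf1, hf2, add_zero] at h4
      exact h4.symm
    rw [h1, hf3, pow_one]
  obtain ⟨-, -, -, -, n', hn', hidx⟩ := Cfsg.Agent.Lib.Helper85.BRLoc.main
    (G ⧸ pPrimeCore p G) hperfQ p (P.mapSurjective hsurj) hP'c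
  -- the image of `N` lies in the normalizer of the image of `P`
  have hmap : (Subgroup.normalizer ((P : Subgroup G) : Set G)).map
      (QuotientGroup.mk' (pPrimeCore p G)) ≤
      Subgroup.normalizer (((P.mapSurjective hsurj : Sylow p (G ⧸ pPrimeCore p G)) :
        Subgroup (G ⧸ pPrimeCore p G)) : Set (G ⧸ pPrimeCore p G)) := by
    rw [Sylow.coe_mapSurjective]
    exact Subgroup.le_normalizer_map _
  have hle : Nat.card (Subgroup.normalizer ((P : Subgroup G) : Set G)) ≤
      Nat.card (Subgroup.normalizer (((P.mapSurjective hsurj : Sylow p (G ⧸ pPrimeCore p G)) :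
        Subgroup (G ⧸ pPrimeCore p G)) : Set (G ⧸ pPrimeCore p G))) := by
    refine Nat.card_le_card_of_injective
      (fun n => ⟨QuotientGroup.mk' (pPrimeCore p G) (n : G),
        hmap (Subgroup.mem_map_of_mem _ n.2)⟩) ?_
    intro a b hab
    have h1 : QuotientGroup.mk' (pPrimeCore p G) (a : G) = QuotientGroup.mk' (pPrimeCore p G) (b : G) :=
      congrArg Subtype.val hab
    have h2 : (a : G)⁻¹ * (b : G) ∈ pPrimeCore p G := by
      rw [← QuotientGroup.eq]
      exact h1
    have h3 : (a : G)⁻¹ * (b : G) = 1 :=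
      hNK _ (Subgroup.mul_mem _ (Subgroup.inv_mem _ a.2) b.2) h2
    apply Subtype.ext
    calc (a : G) = a * ((a : G)⁻¹ * b) := by rw [h3, mul_one]
      _ = b := by group
  -- arithmetic
  have h2 := Subgroup.index_mul_card (Subgroup.normalizer
    (((P.mapSurjective hsurj : Sylow p (G ⧸ pPrimeCore p G)) :
      Subgroup (G ⧸ pPrimeCore p G)) : Set (G ⧸ pPrimeCore p G)))
  have h3 := Subgroup.index_mul_card (Subgroup.normalizer ((P : Subgroup G) : Set G))
  have h4 : Nat.card (Sylow p G) = (Subgroup.normalizer ((P : Subgroup G) : Set G)).index :=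
    Sylow.card_eq_index_normalizer P
  have hNpos : 0 < Nat.card (Subgroup.normalizer ((P : Subgroup G) : Set G)) := Nat.card_pos
  rw [hidx] at h2
  rw [← h4] at h3
  -- n_p * |N| = |G| = (1 + n' p) * |N'| * |K|
  have h5 : Nat.card (Sylow p G) * Nat.card (Subgroup.normalizer ((P : Subgroup G) : Set G))
      = (1 + n' * p) * Nat.card (Subgroup.normalizer
        (((P.mapSurjective hsurj : Sylow p (G ⧸ pPrimeCore p G)) :
          Subgroup (G ⧸ pPrimeCore p G)) : Set (G ⧸ pPrimeCore p G))) *
        Nat.card (pPrimeCore p G) := by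
    rw [h3, hGK, h2]
  have h6 : (p + 1) * (p + 1) * Nat.card (Subgroup.normalizer ((P : Subgroup G) : Set G))
      ≤ Nat.card (Sylow p G) * Nat.card (Subgroup.normalizer ((P : Subgroup G) : Set G)) := by
    rw [h5]
    have h7 : p + 1 ≤ 1 + n' * p := by nlinarith
    calc (p + 1) * (p + 1) * Nat.card (Subgroup.normalizer ((P : Subgroup G) : Set G))
        = (p + 1) * Nat.card (Subgroup.normalizer ((P : Subgroup G) : Set G)) * (p + 1) := by ring
      _ ≤ (1 + n' * p) * Nat.card (Subgroup.normalizer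
        (((P.mapSurjective hsurj : Sylow p (G ⧸ pPrimeCore p G)) :
          Subgroup (G ⧸ pPrimeCore p G)) : Set (G ⧸ pPrimeCore p G))) *
        Nat.card (pPrimeCore p G) :=
          Nat.mul_le_mul (Nat.mul_le_mul h7 hle) hKcard
  have h8 : (p + 1) * (p + 1) ≤ Nat.card (Sylow p G) := Nat.le_of_mul_le_mul_right h6 hNpos
  nlinarith

end Cfsg.Agent.Lib.Helper33.BGS2
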