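import Mathlib
import Cfsg.Agent.Lib.Lead.BrHalfDStmt

/-!
# S4504 / DKer (helper33): an element normalizing every Sylow `p`-subgroup is central.
-/

set_option autoImplicit false

namespace Cfsg.Agent.Lib.Helper33.BrDDKer

open Cfsg.Agent.Lib.Lead.BrHalf

universe u

theorem main (hCentL : DCentL.{u}) : DKer.{u} := by
  intro G _ _ p _ d g hg
  have hpp : p.Prime := Fact.out
  apply hCentL p d g
  have hA : ∀ z : G, (∀ Q : Sylow p G, z • Q = Q) → z ∈ (d.P : Subgroup G) → z = 1 := by
    intro z hz hzP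
    by_contra hz1
    have hzo : orderOf z = p := by
      have h1 : orderOf z ∣ p := by
        rw [← d.hP]
        exact Subgroup.orderOf_dvd_natCard _ hzP
      rcases (Nat.dvd_prime hpp).mp h1 with h2 | h2
      · exact absurd (orderOf_eq_one_iff.mp h2) hz1
      · exact h2
    have hzP' : Subgroup.zpowers z = (d.P : Subgroup G) := by
      apply Subgroup.eq_of_le_of_card_ge ((Subgroup.zpowers_le).mpr hzP)
      rw [Nat.card_zpowers, hzo, d.hP]
    have hzpg : IsPGroup p (Subgroup.zpowers z) := by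
      rw [hzP']
      exact d.P.isPGroup'
    have hall : ∀ Q : Sylow p G, Q = d.P := by
      intro Q
      have h1 := Sylow.smul_eq_iff_mem_normalizer.mp (hz Q)
      have h2 : z ∈ Subgroup.zpowers z ⊓ (Q : Subgroup G) := by
        rw [← hzpg.inf_normalizer_sylow Q]
        exact ⟨Subgroup.mem_zpowers z, h1⟩
      have h3 : (d.P : Subgroup G) ≤ Q := by
        rw [← hzP']
        exact (Subgroup.zpowers_le).mpr h2.2
      exact Sylow.ext (d.P.3 Q.isPGroup' h3)
    have hsub : Subsingleton (Sylow p G) := ⟨fun Q Q' => by rw [hall Q, hall Q']⟩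
    have h1 : Nat.card (Sylow p G) ≤ 1 := Finite.card_le_one_iff_subsingleton.mpr hsub
    rw [d.hn] at h1
    have h2 := hpp.pos
    omega
  have hK : ∀ z : G, (∀ Q : Sylow p G, z • Q = Q) → ∀ w ∈ (d.P : Subgroup G),
      z * w = w * z := by
    intro z hz w hw
    have hzn : z ∈ Subgroup.normalizer ((d.P : Subgroup G) : Set G) :=
      Sylow.smul_eq_iff_mem_normalizer.mp (hz d.P)
    have h1 : z * w * z⁻¹ * w⁻¹ = 1 := by
      apply hA
      · intro Q
        rw [mul_smul, mul_smul, mul_smul]
        have h2 : z⁻¹ • (w⁻¹ • Q) = w⁻¹ • Q := by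
          rw [inv_smul_eq_iff]
          exact (hz _).symm
        rw [h2, smul_inv_smul, hz]
      · exact (d.P : Subgroup G).mul_mem ((Subgroup.mem_normalizer_iff.mp hzn w).mp hw)
          ((d.P : Subgroup G).inv_mem hw)
    calc z * w = (z * w * z⁻¹ * w⁻¹) * w * z := by group
      _ = w * z := by rw [h1, one_mul]
  intro y hy
  have hle : nc d.P ≤ Subgroup.centralizer ({g} : Set G) := by
    show Subgroup.closure (Group.conjugatesOfSet ((d.P : Subgroup G) : Set G)) ≤ _
    apply (Subgroup.closure_le _).mpr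
    intro w hw
    obtain ⟨a, ha, hconj⟩ := Group.mem_conjugatesOfSet_iff.mp hw
    obtain ⟨c, hc⟩ := isConj_iff.mp hconj
    have hg' : ∀ Q : Sylow p G, (c⁻¹ * g * c) • Q = Q := by
      intro Q
      rw [mul_smul, mul_smul, hg, inv_smul_smul]
    have h1 := hK _ hg' a ha
    rw [SetLike.mem_coe, Subgroup.mem_centralizer_singleton_iff, ← hc]
    calc c * a * c⁻¹ * g = c * (a * (c⁻¹ * g * c)) * c⁻¹ := by group
      _ = c * (c⁻¹ * g * c * a) * c⁻¹ := by rw [h1]
      _ = g * (c * a * c⁻¹) := by group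
  have h5 := hle hy
  rw [Subgroup.mem_centralizer_singleton_iff] at h5
  exact h5.symm

end Cfsg.Agent.Lib.Helper33.BrDDKer
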