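import Mathlib
import Cfsg.Agent.Lib.Lead.BrHalfDStmt

/-!
# S4504 / DQuot (helper33): `G / Z(G)` is the permutation group induced on the Sylow
`p`-subgroups.
-/

set_option autoImplicit false

namespace Cfsg.Agent.Lib.Helper33.BrDDQuot

open Cfsg.Agent.Lib.Lead.BrHalf

universe u

theorem main (hKer : DKer.{u}) : DQuot.{u} := by
  intro G _ _ p _ d
  have hker : (MulAction.toPermHom G (Sylow p G)).ker = Subgroup.center G := by
    ext g
    rw [MonoidHom.mem_ker]
    constructor
    · intro h
      apply hKer p d g
      intro Q
      have h1 : (MulAction.toPermHom G (Sylow p G) g) Q = Q := by rw [h]; rfl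
      exact h1
    · intro h
      apply Equiv.ext
      intro Q
      show g • Q = Q
      rw [Sylow.smul_eq_iff_mem_normalizer]
      exact Subgroup.center_le_normalizer _ h
  exact ⟨(QuotientGroup.quotientMulEquivOfEq hker.symm).trans
    (QuotientGroup.quotientKerEquivRange (MulAction.toPermHom G (Sylow p G)))⟩

end Cfsg.Agent.Lib.Helper33.BrDDQuot
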