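import Mathlib
import Cfsg.Agent.Lib.Helper92.D11Stmt
import Cfsg.Agent.Lib.Helper95.MUFIXLE3
import Cfsg.Agent.Lib.Helper93.MUFIX5
import Cfsg.Agent.Lib.Helper71.MUTWOTRANS
import Cfsg.Agent.Lib.Helper71.MUFIX3
import Cfsg.Agent.Lib.Helper71.MUSTAB3
import Cfsg.Agent.Lib.Helper95.MUFIX2
import Cfsg.Agent.Lib.Helper68.M11Facts

/-!
S0679, piece SHARP (helper33): in a transitive simple group of order 7920 and degree 11 a
non-trivial element moves at least 8 points (transport of `FixLe3` of the S0420 blueprint).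
-/

set_option autoImplicit false

namespace Cfsg.Agent.Lib.Helper33.D11SHARP

open Equiv

universe u

/-- `FixLe3` of the S0420 blueprint, assembled from the landed pieces. -/
theorem fixLe3 : Cfsg.Agent.Lib.Helper68.M11UStmt.FixLe3.{u} := by
  have h5 := Cfsg.Agent.Lib.Helper93.MUFIX5.main.{u}
  have hTT := Cfsg.Agent.Lib.Helper71.MUTWOTRANS.main h5
  have h3 := Cfsg.Agent.Lib.Helper71.MUFIX3.main hTT
  have hS3 := Cfsg.Agent.Lib.Helper71.MUSTAB3.main hTT h3
  have h2 := Cfsg.Agent.Lib.Helper95.MUFIX2.main
    Cfsg.Agent.Lib.Helper68.M11Facts.invConj_main hS3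
  exact Cfsg.Agent.Lib.Helper95.MUFIXLE3.main h5 h3 h2

theorem main : Cfsg.Agent.Lib.Helper92.D11Stmt.Sharp.{u} := by
  intro α _ _ hα G htr hsimp hG g hg hg1
  have hne : Nonempty α := by
    rw [← Fintype.card_pos_iff, hα]; norm_num
  obtain ⟨a⟩ := hne
  have hM : (MulAction.stabilizer G a).index = 11 := by
    rw [MulAction.index_stabilizer_of_transitive G a, Nat.card_eq_fintype_card, hα]
  have hg1' : (⟨g, hg⟩ : G) ≠ 1 := by
    intro h; apply hg1; exact congrArg Subtype.val h
  have hfix := fixLe3 G hG (MulAction.stabilizer G a) hM ⟨g, hg⟩ hg1'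
  have hfinj : Function.Injective (MulAction.ofQuotientStabilizer G a) :=
    MulAction.injective_ofQuotientStabilizer G a
  have hfsurj : Function.Surjective (MulAction.ofQuotientStabilizer G a) := by
    intro x
    obtain ⟨k, hk⟩ := MulAction.exists_smul_eq G a x
    exact ⟨(k : G ⧸ MulAction.stabilizer G a), by
      rw [MulAction.ofQuotientStabilizer_mk]; exact hk⟩
  have hmem : ∀ x : {x : α // g x = x}, (hfsurj x.1).choose ∈
      MulAction.fixedBy (G ⧸ MulAction.stabilizer G a) (⟨g, hg⟩ : G) := by
    intro x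
    rw [MulAction.mem_fixedBy]
    apply hfinj
    rw [MulAction.ofQuotientStabilizer_smul, (hfsurj x.1).choose_spec]
    exact x.2
  have h1 : Nat.card {x : α // g x = x} ≤
      Nat.card (MulAction.fixedBy (G ⧸ MulAction.stabilizer G a) (⟨g, hg⟩ : G)) := by
    apply Nat.card_le_card_of_injective (fun x : {x : α // g x = x} =>
      (⟨(hfsurj x.1).choose, hmem x⟩ :
        MulAction.fixedBy (G ⧸ MulAction.stabilizer G a) (⟨g, hg⟩ : G)))
    intro x x' hxx'
    have h2 : (hfsurj x.1).choose = (hfsurj x'.1).choose := congrArg Subtype.val hxx'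
    have h3 := congrArg (MulAction.ofQuotientStabilizer G a) h2
    rw [(hfsurj x.1).choose_spec, (hfsurj x'.1).choose_spec] at h3
    exact Subtype.ext h3
  have hle : (Finset.univ.filter (fun x : α => g x = x)).card ≤ 3 := by
    have h2 : Nat.card {x : α // g x = x} = (Finset.univ.filter (fun x : α => g x = x)).card := by
      rw [Nat.card_eq_fintype_card, Fintype.card_subtype]
    rw [← h2]
    exact h1.trans hfix
  have hsum : (Finset.univ.filter (fun x : α => g x = x)).card + g.support.card = 11 := by
    have h2 := Finset.card_filter_add_card_filter_not (s := (Finset.univ : Finset α))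
      (fun x : α => g x = x)
    rw [Finset.card_univ, hα] at h2
    have h3 : g.support = Finset.univ.filter (fun x : α => ¬ g x = x) := by
      ext x; simp
    rw [h3]; exact h2
  omega

end Cfsg.Agent.Lib.Helper33.D11SHARP
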