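import Mathlib
import Cfsg.Agent.Lib.Helper28.DxStmt

/-!
# Piece KNE of S1615: a non-central odd core gives two distinct twins at every member
-/

set_option autoImplicit false

namespace Cfsg.Agent.Lib.Helper33.DxKNE

open Cfsg Cfsg.Agent.Lib.Helper21.W3Class Cfsg.Agent.Lib.Helper28 Cfsg.Agent.Lib.Helper28.DxStmt

universe u

theorem conj_mem_Pt {G : Type u} [Group G] {D : Set G} (T : FR3.TT D) (g : G) {x y : G}
    (hy : y ∈ Pt D x) : g * y * g⁻¹ ∈ Pt D (g * x * g⁻¹) := by
  refine ⟨T.conj g y hy.1, ?_, ?_⟩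
  · intro h
    apply hy.2.1
    exact mul_left_cancel (mul_right_cancel h)
  · have h1 : x * y = y * x := hy.2.2.eq
    show g * x * g⁻¹ * (g * y * g⁻¹) = g * y * g⁻¹ * (g * x * g⁻¹)
    calc g * x * g⁻¹ * (g * y * g⁻¹) = g * (x * y) * g⁻¹ := by group
      _ = g * (y * x) * g⁻¹ := by rw [h1]
      _ = g * y * g⁻¹ * (g * x * g⁻¹) := by group

theorem at_x {G : Type u} [Group G] [Finite G] {D : Set G} (T : FR3.TT D) (x : G)
    (hnc : ¬ Cfsg.oddCore ↥(Subgroup.closure (Pt D x)) ≤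
      Subgroup.center ↥(Subgroup.closure (Pt D x))) :
    ∃ y ∈ Pt D x, ∃ y' ∈ Pt D x, y ≠ y' ∧ y * y' ∈ Kx D x := by
  obtain ⟨k, hkO, hkZ⟩ := SetLike.not_le_iff_exists.mp hnc
  have hex : ∃ y ∈ Pt D x, (k : G) * y ≠ y * k := by
    by_contra hcon
    push Not at hcon
    apply hkZ
    rw [Subgroup.mem_center_iff]
    intro n
    have hle : Subgroup.closure (Pt D x) ≤ Subgroup.centralizer ({(k : G)} : Set G) := by
      rw [Subgroup.closure_le]
      intro y hy
      rw [SetLike.mem_coe, Subgroup.mem_centralizer_iff]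
      intro h hh
      rw [Set.mem_singleton_iff] at hh
      rw [hh]
      exact hcon y hy
    have h1 := hle n.2
    rw [Subgroup.mem_centralizer_iff] at h1
    have h2 := h1 (k : G) rfl
    exact Subtype.ext h2.symm
  obtain ⟨y, hy, hky⟩ := hex
  have hkx : x * (k : G) = k * x := by
    have hle : Subgroup.closure (Pt D x) ≤ Subgroup.centralizer ({x} : Set G) := by
      rw [Subgroup.closure_le]
      intro z hz
      rw [SetLike.mem_coe, Subgroup.mem_centralizer_iff]
      intro h hh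
      rw [Set.mem_singleton_iff] at hh
      rw [hh]
      exact hz.2.2.eq
    have h1 := hle k.2
    rw [Subgroup.mem_centralizer_iff] at h1
    exact h1 x rfl
  have hy' : (k : G) * y * (k : G)⁻¹ ∈ Pt D x := by
    have h1 := conj_mem_Pt T (k : G) hy
    have h2 : (k : G) * x * (k : G)⁻¹ = x := by
      rw [← hkx]
      group
    rwa [h2] at h1
  refine ⟨y, hy, _, hy', ?_, ?_⟩
  · intro h
    apply hky
    have h1 : y * (k : G) = (k : G) * y * (k : G)⁻¹ * k := by rw [← h]
    rw [h1]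
    group
  · have hyN : y ∈ Subgroup.closure (Pt D x) := Subgroup.subset_closure hy
    have hn : (Cfsg.oddCore ↥(Subgroup.closure (Pt D x))).Normal := inferInstance
    have h1 : (⟨y, hyN⟩ : ↥(Subgroup.closure (Pt D x))) * k * ⟨y, hyN⟩⁻¹ * k⁻¹ ∈
        Cfsg.oddCore ↥(Subgroup.closure (Pt D x)) :=
      Subgroup.mul_mem _ (hn.conj_mem k hkO _) (Subgroup.inv_mem _ hkO)
    have hyi : y⁻¹ = y := inv_eq_of_mul_eq_one_left (T.sq y hy.1)
    unfold Kx
    rw [Subgroup.mem_map]
    refine ⟨_, h1, ?_⟩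
    simp only [Subgroup.coe_subtype, Subgroup.coe_mul, Subgroup.coe_inv]
    rw [hyi]
    group

theorem main : Cfsg.Agent.Lib.Helper28.DxStmt.KNePiece.{u} := by
  intro hConj G _ _ D T x hx hnc p hp
  obtain ⟨y, hy, y', hy', hne, hK⟩ := at_x T x hnc
  obtain ⟨g, hg⟩ := T.trans x hx p hp
  have h1 := conj_mem_Pt T g hy
  have h2 := conj_mem_Pt T g hy'
  have h3 := hConj T g x hx _ hK
  rw [hg] at h1 h2 h3
  refine ⟨_, h1, _, h2, ?_, ?_⟩
  · intro h
    exact hne (mul_left_cancel (mul_right_cancel h))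
  · have h4 : g * y * g⁻¹ * (g * y' * g⁻¹) = g * (y * y') * g⁻¹ := by group
    rw [h4]
    exact h3

end Cfsg.Agent.Lib.Helper33.DxKNE
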