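import Mathlib
import Cfsg.Agent.Lib.Helper28.DxStmt

/-!
# Piece SINGLE of S1615: all commuting partners of a member are twins
-/

set_option autoImplicit false

namespace Cfsg.Agent.Lib.Helper33.DxSINGLE

open Cfsg Cfsg.Agent.Lib.Helper21.W3Class Cfsg.Agent.Lib.Helper28 Cfsg.Agent.Lib.Helper28.DxStmt

universe u

theorem main : Cfsg.Agent.Lib.Helper28.DxStmt.SinglePiece.{u} := by
  intro hMod G _ _ D K T hK p hp u hu v hv
  have hconn : FR3b.NC D p u v :=
    FR3b.connected T hp (by rw [← Pt_eq_Da]; exact hu) (by rw [← Pt_eq_Da]; exact hv)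
  have key : ∀ w, FR3b.NC D p u w → w ∈ Pt D p ∧ u * w ∈ K p := by
    intro w hw
    induction hw with
    | refl => exact ⟨hu, by rw [T.sq u hu.1]; exact (K p).one_mem⟩
    | tail hab hbc ih =>
      rename_i b c
      obtain ⟨hbP, hub⟩ := ih
      obtain ⟨hb, hc, hnc⟩ := hbc
      have hcP : c ∈ Pt D p := by rw [Pt_eq_Da]; exact hc
      refine ⟨hcP, ?_⟩
      have h1 := hMod T hK p hp b hbP c hcP (fun h => hnc h.eq)
      have h2 : u * c = (u * b) * (b * c) := by
        calc u * c = u * (b * b) * c := by rw [T.sq b hbP.1, mul_one]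
          _ = (u * b) * (b * c) := by group
      rw [h2]
      exact (K p).mul_mem hub h1
  exact (key v hconn).2

end Cfsg.Agent.Lib.Helper33.DxSINGLE
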