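import Mathlib
import Cfsg.Agent.Lib.Helper37.EluStmt
import Cfsg.Agent.Lib.Helper37.InvolDecomp

/-!
S5958, piece DIVGL (helper33): the number of ordered decompositions divides `|GL_n(F)|`.
-/

set_option autoImplicit false

namespace Cfsg.Agent.Lib.Helper33.EluDIVGL

open Cfsg Cfsg.Agent.Lib.Helper37.EluStmt

universe u

section

variable {F : Type u} [Field F] {n a t : ℕ}

theorem toLin_inv_apply (g : Matrix.GeneralLinearGroup (Fin n) F) (v : Fin n → F) :
    Matrix.toLin' (g : Matrix (Fin n) (Fin n) F)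
      (Matrix.toLin' ((g⁻¹ : Matrix.GeneralLinearGroup (Fin n) F) : Matrix (Fin n) (Fin n) F) v)
      = v := by
  rw [← Matrix.toLin'_mul_apply, Units.mul_inv, Matrix.toLin'_one]
  rfl

theorem toLin_inv_apply' (g : Matrix.GeneralLinearGroup (Fin n) F) (v : Fin n → F) :
    Matrix.toLin' ((g⁻¹ : Matrix.GeneralLinearGroup (Fin n) F) : Matrix (Fin n) (Fin n) F)
      (Matrix.toLin' (g : Matrix (Fin n) (Fin n) F) v) = v := by
  rw [← Matrix.toLin'_mul_apply, Units.inv_mul, Matrix.toLin'_one]
  rfl

theorem toLin_injective (g : Matrix.GeneralLinearGroup (Fin n) F) :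
    Function.Injective (Matrix.toLin' (g : Matrix (Fin n) (Fin n) F)) := by
  intro v w h
  have h1 := congrArg (Matrix.toLin'
    ((g⁻¹ : Matrix.GeneralLinearGroup (Fin n) F) : Matrix (Fin n) (Fin n) F)) h
  rw [toLin_inv_apply', toLin_inv_apply'] at h1
  exact h1

theorem toLin_surjective (g : Matrix.GeneralLinearGroup (Fin n) F) :
    Function.Surjective (Matrix.toLin' (g : Matrix (Fin n) (Fin n) F)) :=
  fun v => ⟨_, toLin_inv_apply g v⟩

/-- the image of a decomposition under an element of `GL_n(F)` is a decomposition -/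
theorem smul_mem (g : Matrix.GeneralLinearGroup (Fin n) F)
    {D : Fin t → Submodule F (Fin n → F)} (hD : Cfsg.Geo.IsMDecomposition a D) :
    Cfsg.Geo.IsMDecomposition a
      (fun j => (D j).map (Matrix.toLin' (g : Matrix (Fin n) (Fin n) F))) := by
  refine ⟨hD.two_le, hD.pos, fun j => ?_, ?_, ?_⟩
  · rw [← hD.finrank_eq j]
    exact (Submodule.equivMapOfInjective _ (toLin_injective g) (D j)).finrank_eq.symm
  · exact LinearMap.iSupIndep_map _ (toLin_injective g) hD.indep
  · rw [← Submodule.map_iSup, hD.iSup_eq_top, Submodule.map_top]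
    exact LinearMap.range_eq_top.2 (toLin_surjective g)

/-- the action of `GL_n(F)` on the ordered decompositions -/
noncomputable def act (F : Type u) [Field F] (n a t : ℕ) :
    MulAction (Matrix.GeneralLinearGroup (Fin n) F)
      {D : Fin t → Submodule F (Fin n → F) // Cfsg.Geo.IsMDecomposition a D} where
  smul g D := ⟨fun j => (D.1 j).map (Matrix.toLin' (g : Matrix (Fin n) (Fin n) F)),
    smul_mem g D.2⟩
  one_smul D := by
    apply Subtype.ext
    funext j
    show (D.1 j).map (Matrix.toLin'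
      ((1 : Matrix.GeneralLinearGroup (Fin n) F) : Matrix (Fin n) (Fin n) F)) = D.1 j
    rw [Units.val_one, Matrix.toLin'_one, Submodule.map_id]
  mul_smul g h D := by
    apply Subtype.ext
    funext j
    show (D.1 j).map (Matrix.toLin'
      ((g * h : Matrix.GeneralLinearGroup (Fin n) F) : Matrix (Fin n) (Fin n) F))
      = ((D.1 j).map (Matrix.toLin' (h : Matrix (Fin n) (Fin n) F))).map
          (Matrix.toLin' (g : Matrix (Fin n) (Fin n) F))
    rw [Units.val_mul, Matrix.toLin'_mul, Submodule.map_comp]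

end

theorem main : Transit.{u} → DivGL.{u} := by
  intro hT F _ _ n a t hn ha ht
  classical
  letI : MulAction (Matrix.GeneralLinearGroup (Fin n) F)
      {D : Fin t → Submodule F (Fin n → F) // Cfsg.Geo.IsMDecomposition a D} := act F n a t
  -- a decomposition exists
  have hfr : Module.finrank F (Fin n → F) = a * t := by
    rw [Module.finrank_fin_fun, hn]
  obtain ⟨D0, hD1, hD2, hD3, -⟩ :=
    Cfsg.Agent.Lib.Helper37.InvolDecomp.exists_decomp
      (LinearMap.id : (Fin n → F) →ₗ[F] (Fin n → F)) (z := (1 : F)) one_ne_zero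
      (fun v => by simp) a t ha hfr
  have hD0 : Cfsg.Geo.IsMDecomposition a D0 := ⟨ht, ha, hD1, hD2, hD3⟩
  haveI : MulAction.IsPretransitive (Matrix.GeneralLinearGroup (Fin n) F)
      {D : Fin t → Submodule F (Fin n → F) // Cfsg.Geo.IsMDecomposition a D} := by
    refine ⟨fun x y => ?_⟩
    obtain ⟨g, hg⟩ := hT F n a t x.1 y.1 x.2 y.2
    exact ⟨g, Subtype.ext (funext hg)⟩
  have h1 := MulAction.index_stabilizer_of_transitive (Matrix.GeneralLinearGroup (Fin n) F)
    (⟨D0, hD0⟩ : {D : Fin t → Submodule F (Fin n → F) // Cfsg.Geo.IsMDecomposition a D})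
  rw [← h1]
  exact Subgroup.index_dvd_card _

end Cfsg.Agent.Lib.Helper33.EluDIVGL
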