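import Mathlib
import Cfsg.Agent.Lib.Helper37.EluStmt

/-!
S5958, piece TRANSIT (helper33): `GL_n(F)` is transitive on the ordered decompositions.
-/

set_option autoImplicit false

namespace Cfsg.Agent.Lib.Helper33.EluTRANSIT

open Cfsg Cfsg.Agent.Lib.Helper37.EluStmt

universe u

/-- a linear automorphism of `F^n` as an element of `GL_n(F)` -/
theorem exists_gl {F : Type u} [Field F] {n : ℕ} (e : (Fin n → F) ≃ₗ[F] (Fin n → F)) :
    ∃ g : Matrix.GeneralLinearGroup (Fin n) F,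
      Matrix.toLin' (g : Matrix (Fin n) (Fin n) F) = (e : (Fin n → F) →ₗ[F] (Fin n → F)) := by
  have h1 : LinearMap.toMatrix' (e : (Fin n → F) →ₗ[F] (Fin n → F)) *
      LinearMap.toMatrix' (e.symm : (Fin n → F) →ₗ[F] (Fin n → F)) = 1 := by
    rw [← LinearMap.toMatrix'_comp, ← LinearMap.toMatrix'_id]
    congr 1
    ext v : 1
    simp
  have h2 : LinearMap.toMatrix' (e.symm : (Fin n → F) →ₗ[F] (Fin n → F)) *
      LinearMap.toMatrix' (e : (Fin n → F) →ₗ[F] (Fin n → F)) = 1 := by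
    rw [← LinearMap.toMatrix'_comp, ← LinearMap.toMatrix'_id]
    congr 1
    ext v : 1
    simp
  exact ⟨⟨_, _, h1, h2⟩, Matrix.toLin'_toMatrix' _⟩

theorem main : Transit.{u} := by
  intro F _ n a t D D' hD hD'
  classical
  have hI : DirectSum.IsInternal D :=
    DirectSum.isInternal_submodule_of_iSupIndep_of_iSup_eq_top hD.indep hD.iSup_eq_top
  have hI' : DirectSum.IsInternal D' :=
    DirectSum.isInternal_submodule_of_iSupIndep_of_iSup_eq_top hD'.indep hD'.iSup_eq_top
  obtain ⟨bj, -⟩ : ∃ bj : ∀ j, Module.Basis (Fin a) F (D j), True :=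
    ⟨fun j => Module.finBasisOfFinrankEq F (D j) (hD.finrank_eq j), trivial⟩
  obtain ⟨bj', -⟩ : ∃ bj' : ∀ j, Module.Basis (Fin a) F (D' j), True :=
    ⟨fun j => Module.finBasisOfFinrankEq F (D' j) (hD'.finrank_eq j), trivial⟩
  obtain ⟨e, he⟩ : ∃ e : (Fin n → F) ≃ₗ[F] (Fin n → F),
      ∀ (j : Fin t) (k : Fin a), e ((bj j k : D j) : Fin n → F) = ((bj' j k : D' j) : Fin n → F) := by
    refine ⟨(hI.collectedBasis bj).equiv (hI'.collectedBasis bj') (Equiv.refl _), fun j k => ?_⟩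
    have h1 := (hI.collectedBasis bj).equiv_apply ⟨j, k⟩ (hI'.collectedBasis bj') (Equiv.refl _)
    rw [DirectSum.IsInternal.collectedBasis_coe, DirectSum.IsInternal.collectedBasis_coe] at h1
    exact h1
  obtain ⟨g, hg⟩ := exists_gl e
  refine ⟨g, fun j => ?_⟩
  rw [hg]
  have hle : (D j).map (e : (Fin n → F) →ₗ[F] (Fin n → F)) ≤ D' j := by
    rintro w ⟨v, hv, rfl⟩
    have h1 := (bj j).sum_repr ⟨v, hv⟩
    have h2 : v = ∑ k, (bj j).repr ⟨v, hv⟩ k • ((bj j k : D j) : Fin n → F) := by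
      have h3 : ((∑ i, (bj j).repr ⟨v, hv⟩ i • bj j i : D j) : Fin n → F) = v :=
        congrArg (Subtype.val) h1
      exact h3.symm.trans (by simp only [Submodule.coe_sum, Submodule.coe_smul])
    rw [h2, map_sum]
    refine Submodule.sum_mem _ fun k _ => ?_
    rw [map_smul]
    refine Submodule.smul_mem _ _ ?_
    have h4 : (e : (Fin n → F) →ₗ[F] (Fin n → F)) ((bj j k : D j) : Fin n → F)
        = ((bj' j k : D' j) : Fin n → F) := he j k
    rw [h4]
    exact (bj' j k).2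
  have hfr : Module.finrank F ((D j).map (e : (Fin n → F) →ₗ[F] (Fin n → F)))
      = Module.finrank F (D j) := LinearEquiv.finrank_map_eq e (D j)
  exact Submodule.eq_of_le_of_finrank_le hle (by rw [hfr, hD.finrank_eq, hD'.finrank_eq])

end Cfsg.Agent.Lib.Helper33.EluTRANSIT
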