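import Mathlib
import Cfsg.Agent.Lib.Helper24.ExStmt

/-!
S5877, piece SYMP (helper33): the abstract group theory step `SympCoprime`.
-/

set_option autoImplicit false

namespace Cfsg.Agent.Lib.Helper33.ExSYMP

open Cfsg Cfsg.Agent.Lib.Helper24.ExStmt

universe u

open scoped commutatorElement

section Aux

variable {G : Type u} [Group G] {H Zs : Subgroup G} {g : G}

/-- conjugation by `g ^ k` -/
def sg (g : G) (k : ℕ) (h : G) : G := g ^ k * h * (g ^ k)⁻¹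

theorem sg_succ (k : ℕ) (h : G) : sg g (k + 1) h = g * sg g k h * g⁻¹ := by
  unfold sg; rw [pow_succ']; group

theorem sg_mem (hgH : ∀ h ∈ H, g * h * g⁻¹ ∈ H) (k : ℕ) {h : G} (hh : h ∈ H) :
    sg g k h ∈ H := by
  induction k with
  | zero => simpa [sg] using hh
  | succ k ih => rw [sg_succ]; exact hgH _ ih

theorem sg_fix (hgZ : ∀ z ∈ Zs, g * z * g⁻¹ = z) (k : ℕ) {z : G} (hz : z ∈ Zs) :
    sg g k z = z := by
  induction k with
  | zero => simp [sg]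
  | succ k ih => rw [sg_succ, ih]; exact hgZ z hz

theorem sg_mul (k : ℕ) (a b : G) : sg g k (a * b) = sg g k a * sg g k b := by
  unfold sg; group

theorem sg_add (j k : ℕ) (a : G) : sg g (j + k) a = sg g j (sg g k a) := by
  unfold sg; rw [pow_add]; group

theorem sg_comm (k : ℕ) (a b : G) : sg g k ⁅a, b⁆ = ⁅sg g k a, sg g k b⁆ := by
  unfold sg; rw [commutatorElement_def, commutatorElement_def]; group

theorem sg_period {ϖ : ℕ} (hg : g ^ ϖ = 1) (k m : ℕ) (a : G) :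
    sg g (k + ϖ * m) a = sg g k a := by
  unfold sg; rw [pow_add, pow_mul, hg, one_pow, mul_one]

theorem sg_u (k : ℕ) (y : G) : sg g k (cm y g) = cm (sg g k y) g := by
  unfold sg cm; group

theorem comm_mul_right (hcen : ∀ z ∈ Zs, ∀ h ∈ H, z * h = h * z)
    (hcomm : ∀ a ∈ H, ∀ b ∈ H, a * b * a⁻¹ * b⁻¹ ∈ Zs) {a b b' : G}
    (ha : a ∈ H) (hb : b ∈ H) (hb' : b' ∈ H) :
    ⁅a, b * b'⁆ = ⁅a, b⁆ * ⁅a, b'⁆ := by
  have hz := hcen _ (hcomm a ha b' hb') b⁻¹ (H.inv_mem hb)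
  rw [commutatorElement_def, commutatorElement_def, commutatorElement_def]
  calc a * (b * b') * a⁻¹ * (b * b')⁻¹
      = a * b * a⁻¹ * ((a * b' * a⁻¹ * b'⁻¹) * b⁻¹) := by group
    _ = a * b * a⁻¹ * (b⁻¹ * (a * b' * a⁻¹ * b'⁻¹)) := by rw [hz]
    _ = a * b * a⁻¹ * b⁻¹ * (a * b' * a⁻¹ * b'⁻¹) := by group

theorem comm_mul_left (hcen : ∀ z ∈ Zs, ∀ h ∈ H, z * h = h * z)
    (hcomm : ∀ a ∈ H, ∀ b ∈ H, a * b * a⁻¹ * b⁻¹ ∈ Zs) {a a' b : G}
    (ha : a ∈ H) (ha' : a' ∈ H) (hb : b ∈ H) :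
    ⁅a * a', b⁆ = ⁅a, b⁆ * ⁅a', b⁆ := by
  have hz1 := hcen _ (hcomm a' ha' b hb) a ha
  have hz2 := hcen _ (hcomm a' ha' b hb) (a * b * a⁻¹ * b⁻¹)
    (H.mul_mem (H.mul_mem (H.mul_mem ha hb) (H.inv_mem ha)) (H.inv_mem hb))
  rw [commutatorElement_def, commutatorElement_def, commutatorElement_def]
  calc a * a' * b * (a * a')⁻¹ * b⁻¹
      = a * (a' * b * a'⁻¹ * b⁻¹) * b * a⁻¹ * b⁻¹ := by group
    _ = ((a' * b * a'⁻¹ * b⁻¹) * a) * b * a⁻¹ * b⁻¹ := by rw [hz1]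
    _ = (a' * b * a'⁻¹ * b⁻¹) * (a * b * a⁻¹ * b⁻¹) := by group
    _ = a * b * a⁻¹ * b⁻¹ * (a' * b * a'⁻¹ * b⁻¹) := hz2

end Aux

theorem main : SympCoprime.{u} := by
  intro G _ H Zs g ϖ e hZH hcen hcomm hexp hcop hodd hgϖ hgH hgZ hyp x hx h hh
  have cmem : ∀ {a b : G}, a ∈ H → b ∈ H → ⁅a, b⁆ ∈ Zs := fun ha hb => hcomm _ ha _ hb
  have umem : ∀ {y : G}, y ∈ H → cm y g ∈ H := by
    intro y hy
    have h1 := hgH _ (H.inv_mem hy)
    have e1 : cm y g = y * (g * y⁻¹ * g⁻¹) := by unfold cm; group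
    rw [e1]; exact H.mul_mem hy h1
  have smem : ∀ (k : ℕ) {a : G}, a ∈ H → sg g k a ∈ H := fun k a ha => sg_mem hgH k ha
  have mulR : ∀ {a b b' : G}, a ∈ H → b ∈ H → b' ∈ H → ⁅a, b * b'⁆ = ⁅a, b⁆ * ⁅a, b'⁆ :=
    fun ha hb hb' => comm_mul_right hcen hcomm ha hb hb'
  have mulL : ∀ {a a' b : G}, a ∈ H → a' ∈ H → b ∈ H → ⁅a * a', b⁆ = ⁅a, b⁆ * ⁅a', b⁆ :=
    fun ha ha' hb => comm_mul_left hcen hcomm ha ha' hb
  have cZl : ∀ {z b : G}, z ∈ Zs → b ∈ H → ⁅z, b⁆ = 1 := fun hz hb =>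
    commutatorElement_eq_one_iff_commute.2 (hcen _ hz _ hb)
  have cZr : ∀ {z b : G}, z ∈ Zs → b ∈ H → ⁅b, z⁆ = 1 := fun hz hb =>
    commutatorElement_eq_one_iff_commute.2 (hcen _ hz _ hb).symm
  have inv4 : ∀ (k : ℕ) {a b : G}, a ∈ H → b ∈ H → ⁅sg g k a, sg g k b⁆ = ⁅a, b⁆ :=
    fun k a b ha hb => (sg_comm k a b).symm.trans (sg_fix hgZ k (cmem ha hb))
  have hyp' : ∀ {y : G}, y ∈ H → ∀ i : ℕ, ⁅cm y g, sg g i (cm y g)⁆ = 1 := by
    intro y hy i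
    exact commutatorElement_eq_one_iff_commute.2 (hyp y hy i)
  have cop1 : ∀ {c : G}, c ^ ϖ = 1 → c ^ e = 1 → c = 1 := by
    intro c h1 h2
    have d1 := orderOf_dvd_of_pow_eq_one h1
    have d2 := orderOf_dvd_of_pow_eq_one h2
    have d3 : orderOf c ∣ Nat.gcd ϖ e := Nat.dvd_gcd d1 d2
    rw [hcop.gcd_eq_one] at d3
    exact orderOf_eq_one_iff.1 (Nat.dvd_one.1 d3)
  have powL : ∀ {a b : G}, a ∈ H → b ∈ H → ∀ n : ℕ, ⁅a, b⁆ ^ n = ⁅a ^ n, b⁆ := by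
    intro a b ha hb n
    induction n with
    | zero => simp
    | succ n ih => rw [pow_succ, pow_succ, mulL (H.pow_mem ha n) ha hb, ih]
  -- polarisation of the hypothesis
  have stepA : ∀ {y y' : G}, y ∈ H → y' ∈ H → ∀ i : ℕ,
      ⁅cm y' g, sg g i (cm y g)⁆ * ⁅cm y g, sg g i (cm y' g)⁆ = 1 := by
    intro y y' hy hy' i
    have hu := umem hy
    have hu' := umem hy'
    have hz : ⁅y, cm y' g⁆ ∈ Zs := cmem hy hu'
    have e1 : cm (y * y') g = ⁅y, cm y' g⁆ * (cm y' g * cm y g) := by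
      rw [commutatorElement_def]; unfold cm; group
    have e2 : sg g i (cm (y * y') g)
        = ⁅y, cm y' g⁆ * (sg g i (cm y' g) * sg g i (cm y g)) := by
      rw [e1, sg_mul, sg_mul, sg_fix hgZ i hz]
    have h0 := hyp' (H.mul_mem hy hy') i
    rw [e2, e1] at h0
    have hw : cm y' g * cm y g ∈ H := H.mul_mem hu' hu
    have hsu := smem i hu
    have hsu' := smem i hu'
    have hw' : sg g i (cm y' g) * sg g i (cm y g) ∈ H := H.mul_mem hsu' hsu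
    rw [mulL (hZH hz) hw (H.mul_mem (hZH hz) hw'), cZl hz (H.mul_mem (hZH hz) hw'), one_mul,
      mulR hw (hZH hz) hw', cZr hz hw, one_mul,
      mulR hw hsu' hsu, mulL hu' hu hsu', mulL hu' hu hsu, hyp' hy' i, hyp' hy i, one_mul,
      mul_one] at h0
    exact mul_eq_one_comm.1 h0
  have stepA2 : ∀ {y y' : G}, y ∈ H → y' ∈ H → ∀ j : ℕ,
      ⁅cm y g, sg g (j + j) (cm y' g)⁆ = ⁅cm y g, cm y' g⁆ := by
    intro y y' hy hy' j
    have h1 := stepA hy (smem j hy') j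
    rw [← sg_u, ← sg_add, inv4 j (umem hy') (umem hy),
      ← commutatorElement_inv (cm y g) (cm y' g)] at h1
    exact (inv_mul_eq_one.1 h1).symm
  obtain ⟨m, hm⟩ := hodd
  have stepA3 : ∀ {y y' : G}, y ∈ H → y' ∈ H → ∀ k : ℕ,
      ⁅cm y g, sg g k (cm y' g)⁆ = ⁅cm y g, cm y' g⁆ := by
    intro y y' hy hy' k
    have h1 := stepA2 hy hy' (k * (m + 1))
    have e1 : k * (m + 1) + k * (m + 1) = k + ϖ * k := by rw [hm]; ring
    rw [e1, sg_period hgϖ] at h1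
    exact h1
  have Psucc : ∀ (k : ℕ) (y : G),
      y * (sg g (k + 1) y)⁻¹ = y * (sg g k y)⁻¹ * sg g k (cm y g) := by
    intro k y
    unfold sg cm
    rw [pow_succ]; group
  have Pend : ∀ y : G, y * (sg g ϖ y)⁻¹ = 1 := by
    intro y; simp [sg, hgϖ]
  have powA : ∀ {y y' : G}, y ∈ H → y' ∈ H → ∀ k : ℕ,
      ⁅cm y g, y' * (sg g k y')⁻¹⁆ = ⁅cm y g, cm y' g⁆ ^ k := by
    intro y y' hy hy' k
    induction k with
    | zero => simp [sg]
    | succ k ih =>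
      rw [Psucc, mulR (umem hy) (H.mul_mem hy' (H.inv_mem (smem k hy'))) (smem k (umem hy')),
        ih, stepA3 hy hy' k, pow_succ]
  have hA : ∀ {y y' : G}, y ∈ H → y' ∈ H → ⁅cm y g, cm y' g⁆ = 1 := by
    intro y y' hy hy'
    have h1 : ⁅cm y g, cm y' g⁆ ^ ϖ = 1 := by
      rw [← powA hy hy' ϖ, Pend]; simp
    have h2 : ⁅cm y g, cm y' g⁆ ^ e = 1 := by
      rw [powL (umem hy) (umem hy') e]; exact cZl (hexp _ (umem hy)) (umem hy')
    exact cop1 h1 h2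
  have stepB1 : ∀ {x h : G}, x ∈ H → h ∈ H → ∀ k : ℕ,
      ⁅cm x g, h * (sg g k h)⁻¹⁆ = 1 := by
    intro x h hx hh k
    induction k with
    | zero => simp [sg]
    | succ k ih =>
      rw [Psucc, mulR (umem hx) (H.mul_mem hh (H.inv_mem (smem k hh))) (smem k (umem hh)),
        ih, one_mul, sg_u]
      exact hA hx (smem k hh)
  have stepB1' : ∀ {x h : G}, x ∈ H → h ∈ H → ∀ k : ℕ,
      ⁅cm x g, sg g k h⁆ = ⁅cm x g, h⁆ := by
    intro x h hx hh k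
    have h1 := stepB1 hx hh k
    rw [mulR (umem hx) hh (H.inv_mem (smem k hh))] at h1
    have h2 : ⁅cm x g, (sg g k h)⁻¹⁆ = ⁅cm x g, sg g k h⁆⁻¹ := by
      have h3 := mulR (umem hx) (smem k hh) (H.inv_mem (smem k hh))
      rw [mul_inv_cancel, commutatorElement_one_right] at h3
      exact eq_inv_of_mul_eq_one_right h3.symm
    rw [h2] at h1
    exact (mul_inv_eq_one.1 h1).symm
  have stepB2 : ∀ {x h : G}, x ∈ H → h ∈ H → ∀ k : ℕ,
      ⁅sg g k (cm x g), h⁆ = ⁅cm x g, h⁆ := by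
    intro x h hx hh k
    rw [sg_u, ← stepB1' (smem k hx) hh k, ← sg_u, inv4 k (umem hx) hh]
  have powB : ∀ {x h : G}, x ∈ H → h ∈ H → ∀ k : ℕ,
      ⁅x * (sg g k x)⁻¹, h⁆ = ⁅cm x g, h⁆ ^ k := by
    intro x h hx hh k
    induction k with
    | zero => simp [sg]
    | succ k ih =>
      rw [Psucc, mulL (H.mul_mem hx (H.inv_mem (smem k hx))) (smem k (umem hx)) hh, ih,
        stepB2 hx hh k, pow_succ]
  have hfin : ⁅cm x g, h⁆ = 1 := by
    have h1 : ⁅cm x g, h⁆ ^ ϖ = 1 := by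
      rw [← powB hx hh ϖ, Pend]; simp
    have h2 : ⁅cm x g, h⁆ ^ e = 1 := by
      rw [powL (umem hx) hh e]; exact cZl (hexp _ (umem hx)) hh
    exact cop1 h1 h2
  exact commutatorElement_eq_one_iff_commute.1 hfin

end Cfsg.Agent.Lib.Helper33.ExSYMP
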