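import Mathlib
import Cfsg.Agent.Lib.Helper17.CentFix
import Cfsg.Agent.Lib.Helper17.FixedPoints
import Cfsg.Agent.Lib.Helper69.J1Stmt

/-!
# Common tools for the pieces O7980 / O58520 of S4274
-/

set_option autoImplicit false

namespace Cfsg.Agent.Lib.Helper33.J1Common

open Subgroup MulAction
open Cfsg.Agent.Lib.Helper17.Sylow Cfsg.Agent.Lib.Helper17.Sylow2
open Cfsg.Agent.Lib.Helper17.CentFix Cfsg.Agent.Lib.Helper17.Commuting
open Cfsg.Agent.Lib.Helper17.FixedPoints

/-- If the centralizers of the Sylow `p`-subgroups (of order `p`) all have order `c` prime to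
`q`, no element has order divisible by both `p` and `q`. -/
theorem no_common {G : Type*} [Group G] [Finite G] (p q : ℕ) [Fact p.Prime]
    (P0 : Sylow p G) (hP0 : Nat.card (P0 : Subgroup G) = p) (c : ℕ)
    (hc : ∀ Q : Sylow p G, Nat.card (centralizer ((Q : Subgroup G) : Set G)) = c)
    (hqc : ¬ q ∣ c) (g : G) : ¬ (p ∣ orderOf g ∧ q ∣ orderOf g) := by
  rintro ⟨hpg, hqg⟩
  have ho : orderOf g ≠ 0 := (orderOf_pos g).ne'
  have hoa : orderOf (g ^ (orderOf g / p)) = p := orderOf_pow_orderOf_div ho hpg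
  have hob : orderOf (g ^ (orderOf g / q)) = q := orderOf_pow_orderOf_div ho hqg
  have hab : Commute (g ^ (orderOf g / p)) (g ^ (orderOf g / q)) :=
    (Commute.refl g).pow_pow _ _
  obtain ⟨Y, hY⟩ := exists_sylow_eq_zpowers P0 hP0 _ hoa
  have hbC : g ^ (orderOf g / q) ∈ centralizer ((Y : Subgroup G) : Set G) := by
    rw [mem_centralizer_iff]
    intro y hy
    rw [SetLike.mem_coe, hY] at hy
    obtain ⟨n, rfl⟩ := Subgroup.mem_zpowers_iff.mp hy
    exact (hab.zpow_left n).eq
  have h1 := orderOf_dvd_card_of_mem hbC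
  rw [hob, hc Y] at h1
  exact hqc h1

/-- Fixed-point data of an element of prime order `q` centralizing a Sylow `p`-subgroup of
order `p`, acting on the Sylow `p`-subgroups. -/
theorem r5 {G : Type*} [Group G] [Finite G] [IsSimpleGroup G] (hG : ¬ IsMulCommutative G)
    {p q : ℕ} [Fact p.Prime] [Fact q.Prime] (hp : p ∣ Nat.card G) (P : Sylow p G)
    (hP : Nat.card (P : Subgroup G) = p) (w : G) (hw : orderOf w = q)
    (hwC : w ∈ centralizer ((P : Subgroup G) : Set G)) :
    ∃ F : ℕ, F % p = 1 ∧ F % q = Nat.card (Sylow p G) % q ∧ F < Nat.card (Sylow p G) := by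
  have hq : q.Prime := Fact.out
  have h1 := card_fixedBy_mod_of_mem_centralizer P hP w hwC
  have hwq : w ^ (q ^ 1) = 1 := by rw [pow_one, ← hw]; exact pow_orderOf_eq_one w
  have h2 := card_modEq_card_fixedBy (X := G ⧸ normalizer ((P : Subgroup G) : Set G)) w hwq
  have hw1 : w ≠ 1 := by
    rintro rfl
    rw [orderOf_one] at hw
    exact hq.one_lt.ne hw
  have h3 := card_fixedBy_lt_index _ (normalizer_sylow_ne_top hG hp P) w hw1
  have hidx : (normalizer ((P : Subgroup G) : Set G)).index = Nat.card (Sylow p G) :=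
    (P.card_eq_index_normalizer).symm
  have hX : Nat.card (G ⧸ normalizer ((P : Subgroup G) : Set G)) = Nat.card (Sylow p G) := hidx
  refine ⟨_, h1, ?_, ?_⟩
  · rw [hX] at h2
    exact h2.symm
  · rw [hidx] at h3
    exact h3

/-- Commuting elements of distinct prime orders give an element of order divisible by both. -/
theorem exists_common {G : Type*} [Group G] (w x : G) (p q : ℕ) (hp : p.Prime) (hq : q.Prime)
    (hpq : p ≠ q) (hw : orderOf w = p) (hx : orderOf x = q) (hc : Commute w x) :
    p ∣ orderOf (w * x) ∧ q ∣ orderOf (w * x) := by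
  have hcop : Nat.Coprime (orderOf w) (orderOf x) := by
    rw [hw, hx]
    exact (Nat.coprime_primes hp hq).mpr hpq
  rw [hc.orderOf_mul_eq_mul_orderOf_of_coprime hcop, hw, hx]
  exact ⟨dvd_mul_right p q, dvd_mul_left q p⟩

end Cfsg.Agent.Lib.Helper33.J1Common
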