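import Mathlib
import Cfsg.Agent.Lib.Helper33.J1Common

/-!
# Piece O58520 of S4274: no simple group of order `58520 = 2^3 * 5 * 7 * 11 * 19`
(given the counting pieces `Cnt` and `Sum`)
-/

set_option autoImplicit false

namespace Cfsg.Agent.Lib.Helper33.J1O58520

open Subgroup MulAction
open Cfsg.Agent.Lib.Helper17.Sylow Cfsg.Agent.Lib.Helper17.Sylow2
open Cfsg.Agent.Lib.Helper17.CentFix Cfsg.Agent.Lib.Helper17.Commuting
open Cfsg.Agent.Lib.Helper17.FixedPoints
open Cfsg.Agent.Lib.Helper33.J1Common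

universe u

theorem key19 : ∀ n ∈ Nat.divisors 3080, n % 19 = 1 → n ≠ 1 → n = 20 ∨ n = 77 ∨ n = 1540 := by
  decide +kernel

theorem key7 : ∀ n ∈ Nat.divisors 8360, n % 7 = 1 → n ≠ 1 →
    n = 8 ∨ n = 22 ∨ n = 190 ∨ n = 4180 := by
  decide +kernel

theorem keyr18 : ∀ r ∈ Nat.divisors 18, r = 1 ∨ r = 2 ∨ r = 3 ∨ r = 6 ∨ r = 9 ∨ r = 18 := by
  decide

theorem keyr4 : ∀ r ∈ Nat.divisors 4, r = 1 ∨ r = 2 ∨ r = 4 := by
  decide

theorem keyr6 : ∀ r ∈ Nat.divisors 6, r = 1 ∨ r = 2 ∨ r = 3 ∨ r = 6 := by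
  decide

theorem nfact8 : ¬ (2 * 58520 ∣ Nat.factorial 8) := by decide +kernel

section

variable {G : Type u} [Group G] [Finite G] [IsSimpleGroup G]

theorem step19 (h : Nat.card G = 58520) (hG : ¬ IsMulCommutative G) :
    ∀ P : Sylow 19 G, Nat.card (P : Subgroup G) = 19 ∧
      Nat.card (centralizer ((P : Subgroup G) : Set G)) = 19 ∧
      Nat.card (normalizer ((P : Subgroup G) : Set G)) = 38 := by
  have : Fact (Nat.Prime 19) := ⟨by norm_num⟩
  have : Fact (Nat.Prime 7) := ⟨by norm_num⟩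
  have : Fact (Nat.Prime 5) := ⟨by norm_num⟩
  have h19 : 19 ∣ Nat.card G := by rw [h]; norm_num
  have hd : Nat.card (Sylow 19 G) ∣ 3080 :=
    card_sylow_dvd (k := 1) (h.trans (by norm_num)) (by norm_num)
  have hm := card_sylow_mod (G := G) 19
  have hne := card_sylow_ne_one hG h19
  intro P
  have hP : Nat.card (P : Subgroup G) = 19 := by
    simpa using card_sylow_subgroup (k := 1) (m := 3080) (h.trans (by norm_num)) (by norm_num) P
  have hNn := card_normalizer_mul_card_sylow P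
  rw [h] at hNn
  obtain ⟨r, hr1, hr18, hCr, hC19⟩ := sylow_prime_centralizer hG P hP
  have hr := keyr18 r (Nat.mem_divisors.mpr ⟨hr18, by norm_num⟩)
  rcases key19 _ (Nat.mem_divisors.mpr ⟨hd, by norm_num⟩) hm hne with hn | hn | hn
  · exfalso
    rw [hn] at hNn
    have hC7 : 7 ∣ Nat.card (centralizer ((P : Subgroup G) : Set G)) := by
      rcases hr with rfl | rfl | rfl | rfl | rfl | rfl <;> omega
    obtain ⟨w, hwC, hw⟩ :=
      exists_mem_orderOf_eq_prime (centralizer ((P : Subgroup G) : Set G)) 7 hC7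
    obtain ⟨F, hF1, hF2, hF3⟩ := r5 hG h19 P hP w hw hwC
    rw [hn] at hF2 hF3
    omega
  · exfalso
    rw [hn] at hNn
    have hC5 : 5 ∣ Nat.card (centralizer ((P : Subgroup G) : Set G)) := by
      rcases hr with rfl | rfl | rfl | rfl | rfl | rfl <;> omega
    obtain ⟨w, hwC, hw⟩ :=
      exists_mem_orderOf_eq_prime (centralizer ((P : Subgroup G) : Set G)) 5 hC5
    obtain ⟨F, hF1, hF2, hF3⟩ := r5 hG h19 P hP w hw hwC
    rw [hn] at hF2 hF3
    omega
  · rw [hn] at hNn
    refine ⟨hP, ?_, ?_⟩ <;> rcases hr with rfl | rfl | rfl | rfl | rfl | rfl <;> omega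

theorem step7 (h : Nat.card G = 58520) (hG : ¬ IsMulCommutative G) :
    ∃ c : ℕ, (c = 154 ∨ c = 7) ∧ ∀ R : Sylow 7 G, Nat.card (R : Subgroup G) = 7 ∧
      Nat.card (centralizer ((R : Subgroup G) : Set G)) = c ∧
      Nat.card (normalizer ((R : Subgroup G) : Set G)) = 2 * c := by
  have : Fact (Nat.Prime 7) := ⟨by norm_num⟩
  have : Fact (Nat.Prime 19) := ⟨by norm_num⟩
  have h7 : 7 ∣ Nat.card G := by rw [h]; norm_num
  have hd : Nat.card (Sylow 7 G) ∣ 8360 :=
    card_sylow_dvd (k := 1) (h.trans (by norm_num)) (by norm_num)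
  have hm := card_sylow_mod (G := G) 7
  have hne := card_sylow_ne_one hG h7
  have hf := two_mul_card_dvd_factorial_card_sylow hG h7
  rw [h] at hf
  have hR : ∀ R : Sylow 7 G, Nat.card (R : Subgroup G) = 7 := by
    intro R
    simpa using card_sylow_subgroup (k := 1) (m := 8360) (h.trans (by norm_num)) (by norm_num) R
  have hdata : ∀ R : Sylow 7 G, ∃ r : ℕ, (r = 2 ∨ r = 3 ∨ r = 6) ∧
      Nat.card (centralizer ((R : Subgroup G) : Set G)) * r
        = Nat.card (normalizer ((R : Subgroup G) : Set G)) ∧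
      Nat.card (normalizer ((R : Subgroup G) : Set G)) * Nat.card (Sylow 7 G) = 58520 := by
    intro R
    have hNn := card_normalizer_mul_card_sylow R
    rw [h] at hNn
    obtain ⟨r, hr1, hr6, hCr, hC7⟩ := sylow_prime_centralizer hG R (hR R)
    have hr := keyr6 r (Nat.mem_divisors.mpr ⟨hr6, by norm_num⟩)
    refine ⟨r, ?_, hCr, hNn⟩
    rcases hr with rfl | rfl | rfl | rfl
    · exact absurd rfl hr1
    · exact Or.inl rfl
    · exact Or.inr (Or.inl rfl)
    · exact Or.inr (Or.inr rfl)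
  rcases key7 _ (Nat.mem_divisors.mpr ⟨hd, by norm_num⟩) hm hne with hn | hn | hn | hn
  · exfalso
    rw [hn] at hf
    exact nfact8 hf
  · exfalso
    obtain ⟨R⟩ : Nonempty (Sylow 7 G) := inferInstance
    obtain ⟨r, hr, hCr, hNn⟩ := hdata R
    rw [hn] at hNn
    have hC19 : 19 ∣ Nat.card (centralizer ((R : Subgroup G) : Set G)) := by
      rcases hr with rfl | rfl | rfl <;> omega
    obtain ⟨w, hwC, hw⟩ :=
      exists_mem_orderOf_eq_prime (centralizer ((R : Subgroup G) : Set G)) 19 hC19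
    obtain ⟨F, hF1, hF2, hF3⟩ := r5 hG h7 R (hR R) w hw hwC
    rw [hn] at hF2 hF3
    omega
  · refine ⟨154, Or.inl rfl, fun R => ?_⟩
    obtain ⟨r, hr, hCr, hNn⟩ := hdata R
    rw [hn] at hNn
    refine ⟨hR R, ?_, ?_⟩ <;> rcases hr with rfl | rfl | rfl <;> omega
  · refine ⟨7, Or.inr rfl, fun R => ?_⟩
    obtain ⟨r, hr, hCr, hNn⟩ := hdata R
    rw [hn] at hNn
    refine ⟨hR R, ?_, ?_⟩ <;> rcases hr with rfl | rfl | rfl <;> omega

theorem step5 (h : Nat.card G = 58520) (hG : ¬ IsMulCommutative G) (Q : Sylow 5 G) :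
    Nat.card (Q : Subgroup G) = 5 ∧
    ∀ A : ℕ, 4 * 58520 * Nat.card (centralizer ((Q : Subgroup G) : Set G)) ≤
      5 * Nat.card (normalizer ((Q : Subgroup G) : Set G)) * A → 11704 ≤ A := by
  have : Fact (Nat.Prime 5) := ⟨by norm_num⟩
  have hQ : Nat.card (Q : Subgroup G) = 5 := by
    simpa using card_sylow_subgroup (k := 1) (m := 11704) (h.trans (by norm_num)) (by norm_num) Q
  refine ⟨hQ, fun A hA => ?_⟩
  obtain ⟨r, hr1, hr4, hCr, hC5⟩ := sylow_prime_centralizer hG Q hQ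
  have hr := keyr4 r (Nat.mem_divisors.mpr ⟨hr4, by norm_num⟩)
  have hCpos : 0 < Nat.card (centralizer ((Q : Subgroup G) : Set G)) := Nat.card_pos
  rw [← hCr] at hA
  have hA' : Nat.card (centralizer ((Q : Subgroup G) : Set G)) * (4 * 58520) ≤
      Nat.card (centralizer ((Q : Subgroup G) : Set G)) * (5 * r * A) := by
    calc Nat.card (centralizer ((Q : Subgroup G) : Set G)) * (4 * 58520)
        = 4 * 58520 * Nat.card (centralizer ((Q : Subgroup G) : Set G)) := by ring
      _ ≤ 5 * (Nat.card (centralizer ((Q : Subgroup G) : Set G)) * r) * A := hA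
      _ = Nat.card (centralizer ((Q : Subgroup G) : Set G)) * (5 * r * A) := by ring
  have hA'' := Nat.le_of_mul_le_mul_left hA' hCpos
  rcases hr with rfl | rfl | rfl <;> omega

end

theorem main : Cfsg.Agent.Lib.Helper69.J1Stmt.O58520.{u} := by
  intro hCnt hSum G _ _ _ h
  have hG : ¬ IsMulCommutative G := not_comm_of_not_prime (by rw [h]; norm_num)
  have f19 : Fact (Nat.Prime 19) := ⟨by norm_num⟩
  have f5 : Fact (Nat.Prime 5) := ⟨by norm_num⟩
  have f7 : Fact (Nat.Prime 7) := ⟨by norm_num⟩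
  have s19 := step19 h hG
  obtain ⟨c, hc, s7⟩ := step7 h hG
  obtain ⟨P⟩ : Nonempty (Sylow 19 G) := inferInstance
  obtain ⟨Q⟩ : Nonempty (Sylow 5 G) := inferInstance
  obtain ⟨R⟩ : Nonempty (Sylow 7 G) := inferInstance
  have s5 := step5 h hG Q
  have n19_5 := no_common 19 5 P (s19 P).1 19 (fun Y => (s19 Y).2.1) (by norm_num)
  have n19_7 := no_common 19 7 P (s19 P).1 19 (fun Y => (s19 Y).2.1) (by norm_num)
  have n7_5 := no_common 7 5 R (s7 R).1 c (fun Y => (s7 Y).2.1)
    (by rcases hc with rfl | rfl <;> norm_num)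
  have c19 := hCnt G 19 P (s19 P).1
  have c5 := hCnt G 5 Q s5.1
  have c7 := hCnt G 7 R (s7 R).1
  rw [h, (s19 P).2.1, (s19 P).2.2] at c19
  rw [h, (s7 R).2.1, (s7 R).2.2] at c7
  rw [h] at c5
  have a5 := s5.2 _ c5
  have hS := hSum G ({5, 7, 19} : Finset ℕ)
    (by
      intro p hp
      simp only [Finset.mem_insert, Finset.mem_singleton] at hp
      rcases hp with rfl | rfl | rfl <;> norm_num)
    (by
      intro p hp q hq hpq g
      simp only [Finset.mem_insert, Finset.mem_singleton] at hp hq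
      rcases hp with rfl | rfl | rfl <;> rcases hq with rfl | rfl | rfl
      · exact absurd rfl hpq
      · exact fun hh => n7_5 g ⟨hh.2, hh.1⟩
      · exact fun hh => n19_5 g ⟨hh.2, hh.1⟩
      · exact n7_5 g
      · exact absurd rfl hpq
      · exact fun hh => n19_7 g ⟨hh.2, hh.1⟩
      · exact n19_5 g
      · exact n19_7 g
      · exact absurd rfl hpq)
  rw [Finset.sum_insert (by decide), Finset.sum_insert (by decide), Finset.sum_singleton, h] at hS
  rcases hc with rfl | rfl <;> omega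

end Cfsg.Agent.Lib.Helper33.J1O58520
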