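import Mathlib
import Cfsg.Agent.Lib.Helper33.J1Common

/-!
# Piece O7980 of S4274: no simple group of order `7980 = 2^2 * 3 * 5 * 7 * 19`
(given the counting pieces `Cnt` and `Sum`)
-/

set_option autoImplicit false

namespace Cfsg.Agent.Lib.Helper33.J1O7980

open Subgroup MulAction
open Cfsg.Agent.Lib.Helper17.Sylow Cfsg.Agent.Lib.Helper17.Sylow2
open Cfsg.Agent.Lib.Helper17.CentFix Cfsg.Agent.Lib.Helper17.Commuting
open Cfsg.Agent.Lib.Helper17.FixedPoints
open Cfsg.Agent.Lib.Helper33.J1Common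

universe u

theorem key19 : ∀ n ∈ Nat.divisors 420, n % 19 = 1 → n ≠ 1 → n = 20 ∨ n = 210 := by
  decide +kernel

theorem key5 : ∀ n ∈ Nat.divisors 1596, n % 5 = 1 → n ≠ 1 →
    n = 6 ∨ n = 21 ∨ n = 76 ∨ n = 266 ∨ n = 1596 := by
  decide +kernel

theorem key7 : ∀ n ∈ Nat.divisors 1140, n % 7 = 1 → n ≠ 1 → n = 15 ∨ n = 57 ∨ n = 190 := by
  decide +kernel

theorem keyr18 : ∀ r ∈ Nat.divisors 18, r = 1 ∨ r = 2 ∨ r = 3 ∨ r = 6 ∨ r = 9 ∨ r = 18 := by
  decide

theorem keyr4 : ∀ r ∈ Nat.divisors 4, r = 1 ∨ r = 2 ∨ r = 4 := by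
  decide

theorem keyr6 : ∀ r ∈ Nat.divisors 6, r = 1 ∨ r = 2 ∨ r = 3 ∨ r = 6 := by
  decide

theorem nfact6 : ¬ (2 * 7980 ∣ Nat.factorial 6) := by decide +kernel

theorem nfact15 : ¬ (2 * 7980 ∣ Nat.factorial 15) := by decide +kernel

section

variable {G : Type u} [Group G] [Finite G] [IsSimpleGroup G]

theorem step19 (h : Nat.card G = 7980) (hG : ¬ IsMulCommutative G) :
    ∀ P : Sylow 19 G, Nat.card (P : Subgroup G) = 19 ∧
      Nat.card (centralizer ((P : Subgroup G) : Set G)) = 19 ∧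
      Nat.card (normalizer ((P : Subgroup G) : Set G)) = 38 := by
  have : Fact (Nat.Prime 19) := ⟨by norm_num⟩
  have : Fact (Nat.Prime 7) := ⟨by norm_num⟩
  have h19 : 19 ∣ Nat.card G := by rw [h]; norm_num
  have hd : Nat.card (Sylow 19 G) ∣ 420 :=
    card_sylow_dvd (k := 1) (h.trans (by norm_num)) (by norm_num)
  have hm := card_sylow_mod (G := G) 19
  have hne := card_sylow_ne_one hG h19
  intro P
  have hP : Nat.card (P : Subgroup G) = 19 := by
    simpa using card_sylow_subgroup (k := 1) (m := 420) (h.trans (by norm_num)) (by norm_num) P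
  have hNn := card_normalizer_mul_card_sylow P
  rw [h] at hNn
  obtain ⟨r, hr1, hr18, hCr, hC19⟩ := sylow_prime_centralizer hG P hP
  have hr := keyr18 r (Nat.mem_divisors.mpr ⟨hr18, by norm_num⟩)
  rcases key19 _ (Nat.mem_divisors.mpr ⟨hd, by norm_num⟩) hm hne with hn | hn
  · exfalso
    rw [hn] at hNn
    have hC7 : 7 ∣ Nat.card (centralizer ((P : Subgroup G) : Set G)) := by
      rcases hr with rfl | rfl | rfl | rfl | rfl | rfl <;> omega
    obtain ⟨w, hwC, hw⟩ :=
      exists_mem_orderOf_eq_prime (centralizer ((P : Subgroup G) : Set G)) 7 hC7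
    obtain ⟨F, hF1, hF2, hF3⟩ := r5 hG h19 P hP w hw hwC
    rw [hn] at hF2 hF3
    omega
  · rw [hn] at hNn
    refine ⟨hP, ?_, ?_⟩ <;> rcases hr with rfl | rfl | rfl | rfl | rfl | rfl <;> omega

theorem step5 (h : Nat.card G = 7980) (hG : ¬ IsMulCommutative G) :
    ∀ Q : Sylow 5 G, Nat.card (Q : Subgroup G) = 5 ∧
      Nat.card (centralizer ((Q : Subgroup G) : Set G)) = 15 ∧
      Nat.card (normalizer ((Q : Subgroup G) : Set G)) = 30 := by
  have : Fact (Nat.Prime 19) := ⟨by norm_num⟩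
  have : Fact (Nat.Prime 5) := ⟨by norm_num⟩
  have h5 : 5 ∣ Nat.card G := by rw [h]; norm_num
  have hd : Nat.card (Sylow 5 G) ∣ 1596 :=
    card_sylow_dvd (k := 1) (h.trans (by norm_num)) (by norm_num)
  have hm := card_sylow_mod (G := G) 5
  have hne := card_sylow_ne_one hG h5
  have hf := two_mul_card_dvd_factorial_card_sylow hG h5
  rw [h] at hf
  intro Q
  have hQ : Nat.card (Q : Subgroup G) = 5 := by
    simpa using card_sylow_subgroup (k := 1) (m := 1596) (h.trans (by norm_num)) (by norm_num) Q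
  have hNn := card_normalizer_mul_card_sylow Q
  rw [h] at hNn
  obtain ⟨r, hr1, hr4, hCr, hC5⟩ := sylow_prime_centralizer hG Q hQ
  have hr := keyr4 r (Nat.mem_divisors.mpr ⟨hr4, by norm_num⟩)
  rcases key5 _ (Nat.mem_divisors.mpr ⟨hd, by norm_num⟩) hm hne with hn | hn | hn | hn | hn
  · exfalso
    rw [hn] at hf
    exact nfact6 hf
  · exfalso
    rw [hn] at hNn
    have hC19 : 19 ∣ Nat.card (centralizer ((Q : Subgroup G) : Set G)) := by
      rcases hr with rfl | rfl | rfl <;> omega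
    obtain ⟨w, hwC, hw⟩ :=
      exists_mem_orderOf_eq_prime (centralizer ((Q : Subgroup G) : Set G)) 19 hC19
    obtain ⟨F, hF1, hF2, hF3⟩ := r5 hG h5 Q hQ w hw hwC
    rw [hn] at hF2 hF3
    omega
  · exfalso
    rw [hn] at hNn
    rcases hr with rfl | rfl | rfl <;> omega
  · rw [hn] at hNn
    refine ⟨hQ, ?_, ?_⟩ <;> rcases hr with rfl | rfl | rfl <;> omega
  · exfalso
    rw [hn] at hNn
    rcases hr with rfl | rfl | rfl <;> omega

theorem step7 (h : Nat.card G = 7980) (hG : ¬ IsMulCommutative G)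
    (hno : ∀ g : G, ¬ (5 ∣ orderOf g ∧ 7 ∣ orderOf g)) :
    ∀ R : Sylow 7 G, Nat.card (R : Subgroup G) = 7 ∧
      7 ≤ Nat.card (centralizer ((R : Subgroup G) : Set G)) ∧
      Nat.card (normalizer ((R : Subgroup G) : Set G)) = 42 := by
  have : Fact (Nat.Prime 7) := ⟨by norm_num⟩
  have : Fact (Nat.Prime 5) := ⟨by norm_num⟩
  have h7 : 7 ∣ Nat.card G := by rw [h]; norm_num
  have hd : Nat.card (Sylow 7 G) ∣ 1140 :=
    card_sylow_dvd (k := 1) (h.trans (by norm_num)) (by norm_num)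
  have hm := card_sylow_mod (G := G) 7
  have hne := card_sylow_ne_one hG h7
  have hf := two_mul_card_dvd_factorial_card_sylow hG h7
  rw [h] at hf
  intro R
  have hR : Nat.card (R : Subgroup G) = 7 := by
    simpa using card_sylow_subgroup (k := 1) (m := 1140) (h.trans (by norm_num)) (by norm_num) R
  have hNn := card_normalizer_mul_card_sylow R
  rw [h] at hNn
  obtain ⟨r, hr1, hr6, hCr, hC7⟩ := sylow_prime_centralizer hG R hR
  have hr := keyr6 r (Nat.mem_divisors.mpr ⟨hr6, by norm_num⟩)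
  rcases key7 _ (Nat.mem_divisors.mpr ⟨hd, by norm_num⟩) hm hne with hn | hn | hn
  · exfalso
    rw [hn] at hf
    exact nfact15 hf
  · exfalso
    rw [hn] at hNn
    have hC5 : 5 ∣ Nat.card (centralizer ((R : Subgroup G) : Set G)) := by
      rcases hr with rfl | rfl | rfl | rfl <;> omega
    obtain ⟨w, hwC, hw⟩ :=
      exists_mem_orderOf_eq_prime (centralizer ((R : Subgroup G) : Set G)) 5 hC5
    obtain ⟨x, hxR, hx⟩ := exists_mem_orderOf_eq_prime (R : Subgroup G) 7 (by rw [hR])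
    have hcomm : Commute w x := ((mem_centralizer_iff.mp hwC) x hxR).symm
    exact hno (w * x) (exists_common w x 5 7 (by norm_num) (by norm_num) (by norm_num) hw hx hcomm)
  · rw [hn] at hNn
    refine ⟨hR, Nat.le_of_dvd Nat.card_pos hC7, by omega⟩

end

theorem main : Cfsg.Agent.Lib.Helper69.J1Stmt.O7980.{u} := by
  intro hCnt hSum G _ _ _ h
  have hG : ¬ IsMulCommutative G := not_comm_of_not_prime (by rw [h]; norm_num)
  have f19 : Fact (Nat.Prime 19) := ⟨by norm_num⟩
  have f5 : Fact (Nat.Prime 5) := ⟨by norm_num⟩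
  have f7 : Fact (Nat.Prime 7) := ⟨by norm_num⟩
  have s19 := step19 h hG
  have s5 := step5 h hG
  obtain ⟨P⟩ : Nonempty (Sylow 19 G) := inferInstance
  obtain ⟨Q⟩ : Nonempty (Sylow 5 G) := inferInstance
  obtain ⟨R⟩ : Nonempty (Sylow 7 G) := inferInstance
  have n19_5 := no_common 19 5 P (s19 P).1 19 (fun Y => (s19 Y).2.1) (by norm_num)
  have n19_7 := no_common 19 7 P (s19 P).1 19 (fun Y => (s19 Y).2.1) (by norm_num)
  have n5_7 := no_common 5 7 Q (s5 Q).1 15 (fun Y => (s5 Y).2.1) (by norm_num)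
  have s7 := step7 h hG n5_7
  have c19 := hCnt G 19 P (s19 P).1
  have c5 := hCnt G 5 Q (s5 Q).1
  have c7 := hCnt G 7 R (s7 R).1
  rw [h, (s19 P).2.1, (s19 P).2.2] at c19
  rw [h, (s5 Q).2.1, (s5 Q).2.2] at c5
  rw [h, (s7 R).2.2] at c7
  have h7c := (s7 R).2.1
  have hS := hSum G ({5, 7, 19} : Finset ℕ)
    (by
      intro p hp
      simp only [Finset.mem_insert, Finset.mem_singleton] at hp
      rcases hp with rfl | rfl | rfl <;> norm_num)
    (by
      intro p hp q hq hpq g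
      simp only [Finset.mem_insert, Finset.mem_singleton] at hp hq
      rcases hp with rfl | rfl | rfl <;> rcases hq with rfl | rfl | rfl
      · exact absurd rfl hpq
      · exact n5_7 g
      · exact fun hh => n19_5 g ⟨hh.2, hh.1⟩
      · exact fun hh => n5_7 g ⟨hh.2, hh.1⟩
      · exact absurd rfl hpq
      · exact fun hh => n19_7 g ⟨hh.2, hh.1⟩
      · exact n19_5 g
      · exact n19_7 g
      · exact absurd rfl hpq)
  rw [Finset.sum_insert (by decide), Finset.sum_insert (by decide), Finset.sum_singleton, h] at hS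
  omega

end Cfsg.Agent.Lib.Helper33.J1O7980
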