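import Mathlib
import Cfsg.Agent.Lib.Helper94.OMiPStmt
import Cfsg.Agent.Lib.Helper94.EllPFIX
import Cfsg.Agent.Lib.Helper40.AltRank

/-!
# S5991 / MTYPE (second seat, helper33): an isometry `x` of the minus form, a stable nondegenerate
`W'` of odd dimension with `(x - 1) ^ 2 = 0` on `W'`, `dim W' ≤ 2 dim (x - 1) W' + 1` and
`Q (Fix x) ⊆ β F²`: `W'` has type `β` and `dim W' ≡ 1 (mod 4)`.
-/

set_option autoImplicit false

namespace Cfsg.Agent.Lib.Helper33.MTYPE

open Module QuadraticMap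
open Cfsg.Agent.Lib.Helper44.QSpace Cfsg.Agent.Lib.Helper44.NegPairs
open Cfsg.Agent.Lib.Helper44.WittND
open Cfsg.Agent.Lib.Helper94.OMiPStmt

universe u

section gen

variable {F : Type*} [Field F] {V : Type u} [AddCommGroup V] [Module F V] [FiniteDimensional F V]

/-- pointwise: `N (N u) = 0` and `1 + N` an isometry give `Q (N u) = 0` and `B (u, N u) = 0` -/
theorem sq_zero_facts_pt (h2 : (2 : F) ≠ 0) (Q : QuadraticForm F V) (N : V →ₗ[F] V)
    (hQ : ∀ v, Q (v + N v) = Q v) (u : V) (hN2 : N (N u) = 0) :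
    Q (N u) = 0 ∧ polar Q u (N u) = 0 := by
  have e1 : Q (u + N u) = Q u + Q (N u) + polar Q u (N u) := QuadraticMap.map_add Q u (N u)
  have e2 : Q (u + (2 : F) • N u) = Q u + Q ((2 : F) • N u) + polar Q u ((2 : F) • N u) :=
    QuadraticMap.map_add Q u _
  have e3 : Q (u + (2 : F) • N u) = Q u := by
    have h := hQ (u + N u)
    have hNa : N (u + N u) = N u := by rw [map_add, hN2, add_zero]
    rw [hNa] at h
    have e : u + (2 : F) • N u = u + N u + N u := by rw [two_smul, add_assoc]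
    rw [e, h, hQ u]
  rw [QuadraticMap.map_smul, polar_smul_right] at e2
  rw [hQ u] at e1
  rw [e3] at e2
  have hb : (2 : F) * Q (N u) = 0 := by
    simp only [smul_eq_mul] at e2
    linear_combination 2 * e1 - e2
  have hb' : Q (N u) = 0 := (mul_eq_zero.mp hb).resolve_left h2
  refine ⟨hb', ?_⟩
  rw [hb'] at e1
  linear_combination -e1

/-- the rank of `N` on a nondegenerate invariant subspace on which `N ^ 2 = 0` is even -/
theorem even_rank_sq_zero_on (h2 : (2 : F) ≠ 0) (Q : QuadraticForm F V) (N : V →ₗ[F] V)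
    (hQ : ∀ v, Q (v + N v) = Q v)
    (W : Submodule F V) (hW : NDsub Q W) (hNW : ∀ w ∈ W, N w ∈ W)
    (hN2 : ∀ v ∈ W, N (N v) = 0) :
    Even (finrank F ↥(W.map N)) := by
  classical
  have halt : ∀ u ∈ W, polar Q (N u) u = 0 := by
    intro u hu
    rw [polar_comm]
    exact (sq_zero_facts_pt h2 Q N hQ u (hN2 u hu)).2
  have hskew : ∀ u ∈ W, ∀ k ∈ W, polar Q (N u) k = -polar Q (N k) u := by
    intro u hu k hk
    have h := halt (u + k) (W.add_mem hu hk)
    rw [map_add, polar_add_left, polar_add_right, polar_add_right, halt u hu, halt k hk] at h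
    linear_combination h
  obtain ⟨f, hf⟩ : ∃ f : ↥W →ₗ[F] V, f = N ∘ₗ W.subtype := ⟨_, rfl⟩
  have hfa : ∀ w : ↥W, f w = N (w : V) := by
    intro w; rw [hf]; rfl
  obtain ⟨C0, hC0⟩ := Submodule.exists_isCompl (LinearMap.ker f)
  have hrange : LinearMap.range f = W.map N := by
    rw [hf, LinearMap.range_comp, Submodule.range_subtype]
  have hdim : finrank F ↥C0 = finrank F ↥(W.map N) := by
    have h1 := Submodule.finrank_add_eq_of_isCompl hC0
    have h3 := LinearMap.finrank_range_add_finrank_ker f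
    rw [hrange] at h3
    omega
  rw [← hdim]
  obtain ⟨B, hB⟩ : ∃ B : LinearMap.BilinForm F ↥C0,
      ∀ x y : ↥C0, B x y = polar Q (N ((x : ↥W) : V)) ((y : ↥W) : V) :=
    ⟨(((LinearMap.BilinForm.compLeft (polarBilin Q) N).restrict W).restrict C0), fun x y => rfl⟩
  apply Cfsg.Agent.Lib.Helper40.AltRank.even_finrank_of_alt B
  · intro x
    rw [hB]
    exact halt _ (x : ↥W).2
  · intro u hu
    have h1 : ∀ w ∈ W, polar Q (N ((u : ↥W) : V)) w = 0 := by
      intro w hw
      have hw' : (⟨w, hw⟩ : ↥W) ∈ LinearMap.ker f ⊔ C0 := by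
        rw [hC0.sup_eq_top]; exact Submodule.mem_top
      obtain ⟨k, hk, c, hc, hkc⟩ := Submodule.mem_sup.mp hw'
      have hk' : N (k : V) = 0 := by
        have := LinearMap.mem_ker.mp hk
        rwa [hfa] at this
      have hwe : w = (k : V) + (c : V) := by
        have := congrArg (Subtype.val) hkc
        simpa using this.symm
      have h3 := hu ⟨c, hc⟩
      rw [hB] at h3
      rw [hwe, polar_add_right, hskew _ (u : ↥W).2 (k : V) k.2, hk']
      simp only [polar_zero_left, neg_zero, zero_add]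
      exact h3
    have h4 : N ((u : ↥W) : V) = 0 := hW _ (hNW _ (u : ↥W).2) h1
    have h5 : (u : ↥W) ∈ LinearMap.ker f ⊓ C0 :=
      Submodule.mem_inf.mpr ⟨LinearMap.mem_ker.mpr (by rw [hfa]; exact h4), u.2⟩
    rw [hC0.inf_eq_bot, Submodule.mem_bot] at h5
    exact Subtype.ext h5

/-- the abstract statement -/
theorem core (h2 : (2 : F) ≠ 0) (Q : QuadraticForm F V) (A : V →ₗ[F] V)
    (hA : ∀ v, Q (A v) = Q v)
    (W : Submodule F V) (hW : NDsub Q W) (hAW : ∀ w ∈ W, A w ∈ W)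
    (hN2 : ∀ v ∈ W, (A - LinearMap.id : V →ₗ[F] V) ((A - LinearMap.id : V →ₗ[F] V) v) = 0)
    (hodd : Odd (finrank F ↥W))
    (hle : finrank F ↥W ≤ 2 * finrank F ↥(W.map (A - LinearMap.id : V →ₗ[F] V)) + 1)
    (β : F) (hβ : ∀ w ∈ LinearMap.ker (A - LinearMap.id : V →ₗ[F] V), ∃ c : F, Q w = c * c * β) :
    (∃ S : Submodule F V, S ≤ W ∧ (∀ s ∈ S, Q s = 0) ∧
      2 * finrank F ↥S + 1 = finrank F ↥W ∧
      ∃ w ∈ W, (∀ s ∈ S, polar Q s w = 0) ∧ Q w = β) ∧ finrank F ↥W % 4 = 1 := by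
  obtain ⟨N, hNdef⟩ : ∃ N : V →ₗ[F] V, N = A - LinearMap.id := ⟨_, rfl⟩
  rw [← hNdef] at hN2 hle hβ
  have hN : ∀ v, N v = A v - v := by
    intro v
    rw [hNdef, LinearMap.sub_apply, LinearMap.id_apply]
  have hQN : ∀ v, Q (v + N v) = Q v := by
    intro v
    rw [hN, add_sub_cancel, hA]
  have hpol : ∀ u v, polar Q (A u) (A v) = polar Q u v := by
    intro u v
    unfold polar
    rw [← map_add, hA, hA, hA]
  have hNW : ∀ w ∈ W, N w ∈ W := by
    intro w hw
    rw [hN]
    exact W.sub_mem (hAW w hw) hw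
  have hSW : W.map N ≤ W := by
    intro t ht
    obtain ⟨w, hw, rfl⟩ := Submodule.mem_map.mp ht
    exact hNW w hw
  have hsing : ∀ t ∈ W.map N, Q t = 0 := by
    intro t ht
    obtain ⟨w, hw, rfl⟩ := Submodule.mem_map.mp ht
    exact (sq_zero_facts_pt h2 Q N hQN w (hN2 w hw)).1
  have hhalf := Cfsg.Agent.Lib.Helper94.EllPFIX.ts_half Q hW hSW hsing
  have hev := even_rank_sq_zero_on h2 Q N hQN W hW hNW hN2
  have hdimW : 2 * finrank F ↥(W.map N) + 1 = finrank F ↥W := by
    obtain ⟨k, hk⟩ := hodd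
    omega
  obtain ⟨K, hKdef⟩ : ∃ K : Submodule F V, K = W ⊓ LinearMap.ker N := ⟨_, rfl⟩
  have hKdim : finrank F ↥K + finrank F ↥(W.map N) = finrank F ↥W := by
    have h3 := LinearMap.finrank_range_add_finrank_ker (N.domRestrict W)
    rw [LinearMap.range_domRestrict, LinearMap.ker_domRestrict] at h3
    have h4 : finrank F ↥((LinearMap.ker N).comap W.subtype) = finrank F ↥K := by
      rw [← Submodule.finrank_map_subtype_eq W ((LinearMap.ker N).comap W.subtype),
        Submodule.map_comap_subtype, hKdef]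
    omega
  obtain ⟨w, hwK, hwS⟩ : ∃ w ∈ K, w ∉ W.map N := by
    by_contra hcon
    have hle' : K ≤ W.map N := fun w hw => by
      by_contra hw'
      exact hcon ⟨w, hw, hw'⟩
    have := Submodule.finrank_mono hle'
    omega
  have hwW : w ∈ W := by rw [hKdef] at hwK; exact hwK.1
  have hwfix : A w = w := by
    rw [hKdef] at hwK
    have := LinearMap.mem_ker.mp hwK.2
    rw [hN, sub_eq_zero] at this
    exact this
  have hperp : ∀ s ∈ W.map N, polar Q s w = 0 := by
    intro s hs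
    obtain ⟨u, hu, rfl⟩ := Submodule.mem_map.mp hs
    have h := hpol u w
    rw [hwfix] at h
    rw [hN, polar_sub_left, h, sub_self]
  have hQw : Q w ≠ 0 := by
    intro h0
    have hT : ∀ t ∈ W.map N ⊔ Submodule.span F {w}, Q t = 0 := by
      intro t ht
      obtain ⟨s, hs, y, hy, rfl⟩ := Submodule.mem_sup.mp ht
      obtain ⟨c, rfl⟩ := Submodule.mem_span_singleton.mp hy
      have e := QuadraticMap.map_add Q s (c • w)
      rw [e, hsing s hs, QuadraticMap.map_smul, h0, polar_smul_right, hperp s hs]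
      simp
    have hTW : W.map N ⊔ Submodule.span F {w} ≤ W :=
      sup_le hSW ((Submodule.span_singleton_le_iff_mem w W).mpr hwW)
    have hh := Cfsg.Agent.Lib.Helper94.EllPFIX.ts_half Q hW hTW hT
    have hlt : finrank F ↥(W.map N) < finrank F ↥(W.map N ⊔ Submodule.span F {w}) := by
      apply Submodule.finrank_lt_finrank_of_lt
      refine lt_of_le_of_ne le_sup_left ?_
      intro heq
      apply hwS
      rw [heq]
      exact Submodule.mem_sup_right (Submodule.mem_span_singleton_self w)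
    omega
  obtain ⟨c, hc⟩ := hβ w (LinearMap.mem_ker.mpr (by rw [hN, hwfix, sub_self]))
  have hc0 : c ≠ 0 := by
    rintro rfl
    apply hQw
    rw [hc]; ring
  refine ⟨⟨W.map N, hSW, hsing, hdimW, c⁻¹ • w, W.smul_mem _ hwW, ?_, ?_⟩, ?_⟩
  · intro s hs
    rw [polar_smul_right, hperp s hs, smul_zero]
  · rw [QuadraticMap.map_smul, hc, smul_eq_mul]
    field_simp
  · obtain ⟨j, hj⟩ := hev
    omega

end gen

theorem main : MType.{u} := by
  intro F _ _ hodd d hd a b hab x hx W' hWnd hWodd hStab hN2 hle β hβ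
  have h2 : (2 : F) ≠ 0 := Cfsg.Agent.Lib.Helper10.HypINVOL.two_ne_zero_of_odd hodd
  have hA : ∀ v, minusQ (d - 1) F a b (Matrix.toLin' (x : Matrix (Mi d) (Mi d) F) v) =
      minusQ (d - 1) F a b v := by
    intro v
    rw [Matrix.toLin'_apply]
    exact hx v v
  have hWnd' : NDsub (minusQ (d - 1) F a b) W' := by
    intro y hy hyz
    by_contra hy0
    obtain ⟨-, z, hz, hz0⟩ := hWnd y hy hy0
    exact hz0 (hyz z hz)
  have hAW : ∀ w ∈ W', Matrix.toLin' (x : Matrix (Mi d) (Mi d) F) w ∈ W' := by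
    intro w hw
    exact hStab (Submodule.mem_map_of_mem hw)
  obtain ⟨⟨S, hSW, hS0, hSdim, w, hwW, hwS, hwβ⟩, hmod⟩ :=
    core h2 (minusQ (d - 1) F a b) (Matrix.toLin' (x : Matrix (Mi d) (Mi d) F)) hA W' hWnd' hAW
      hN2 hWodd hle β hβ
  exact ⟨⟨S, hSW, hS0, hSdim, w, hwW, hwS, hwβ⟩, hmod⟩

end Cfsg.Agent.Lib.Helper33.MTYPE
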