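import Mathlib
import Cfsg.Agent.Lib.Helper45.OMiStmt
import Cfsg.Agent.Lib.Helper94.OMiPStmt
import Cfsg.Agent.Lib.Helper94.MPFIXC
import Cfsg.Agent.Lib.Helper97.MSPLIT
import Cfsg.Agent.Lib.Helper97.MRANK
import Cfsg.Agent.Lib.Helper33.MTYPE

/-!
# S5991 / PFIXCM (helper33): `OMiStmt.PFixCM` from the landed `MSplit`, `MRank`, `MType`, `MPFixC`
pieces of helper94's finer split.  From the fixed vector `u₁`: `Q (Fix x) ⊆ Q u₁ · F²` and
`dim (x - 1) V ≥ d`.
-/

set_option autoImplicit false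

namespace Cfsg.Agent.Lib.Helper33.OMiPFIXCM

open Module QuadraticMap
open Cfsg.Agent.Lib.Helper44.NegPairs
open Cfsg.Agent.Lib.Helper94.OMiPStmt (Mi MSplit MPFixC)

universe u

section gen

variable {F : Type*} [Field F] {V : Type u} [AddCommGroup V] [Module F V]

/-- `Q w ∈ Q u₁ · F²` for every fixed vector `w`, if `Fix ≤ ⟨u₁⟩ + (A - 1) V` -/
theorem fix_sq (h2 : (2 : F) ≠ 0) (Q : QuadraticForm F V) (A : V →ₗ[F] V)
    (hA : ∀ v, Q (A v) = Q v) (u₁ : V) (hu₁ : A u₁ = u₁)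
    (hle : LinearMap.ker (A - LinearMap.id : V →ₗ[F] V) ≤
      Submodule.span F {u₁} ⊔ LinearMap.range (A - LinearMap.id : V →ₗ[F] V))
    (w : V) (hw : A w = w) : ∃ c : F, Q w = c * c * Q u₁ := by
  have hpol : ∀ u v, polar Q (A u) (A v) = polar Q u v := by
    intro u v
    unfold polar
    rw [← map_add, hA, hA, hA]
  have hfixperp : ∀ y v, A y = y → polar Q y (A v - v) = 0 := by
    intro y v hy
    have h := hpol y v
    rw [hy] at h
    rw [polar_sub_right, h, sub_self]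
  have hwk : w ∈ LinearMap.ker (A - LinearMap.id : V →ₗ[F] V) := by
    rw [LinearMap.mem_ker, LinearMap.sub_apply, LinearMap.id_apply, hw, sub_self]
  obtain ⟨y, hy, n, hn, hyn⟩ := Submodule.mem_sup.mp (hle hwk)
  obtain ⟨α, rfl⟩ := Submodule.mem_span_singleton.mp hy
  obtain ⟨v, rfl⟩ := LinearMap.mem_range.mp hn
  rw [LinearMap.sub_apply, LinearMap.id_apply] at hyn
  have hnfix : A (A v - v) = A v - v := by
    have e : A v - v = w - α • u₁ := by rw [← hyn]; abel
    rw [e, map_sub, map_smul, hw, hu₁]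
  have hQn : Q (A v - v) = 0 := by
    have h := hfixperp (A v - v) v hnfix
    rw [QuadraticMap.polar_self, two_nsmul, ← two_mul] at h
    exact (mul_eq_zero.mp h).resolve_left h2
  refine ⟨α, ?_⟩
  rw [← hyn]
  have e := QuadraticMap.map_add Q (α • u₁) (A v - v)
  rw [e, hQn, QuadraticMap.map_smul, polar_smul_left, hfixperp u₁ v hu₁]
  simp [smul_eq_mul]

/-- `dim (A - 1) V ≥ d` if `Fix ≤ ⟨u₁⟩ + (A - 1) V` and `dim V = 2 d` -/
theorem rank_ge [FiniteDimensional F V] (N : V →ₗ[F] V) (u₁ : V) (d : ℕ)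
    (hV : finrank F V = 2 * d)
    (hle : LinearMap.ker N ≤ Submodule.span F {u₁} ⊔ LinearMap.range N) :
    d ≤ finrank F ↥(LinearMap.range N) := by
  classical
  have h1 := Submodule.finrank_mono hle
  have h2 := Submodule.finrank_add_le_finrank_add_finrank (Submodule.span F {u₁})
    (LinearMap.range N)
  have h3 : finrank F ↥(Submodule.span F {u₁}) ≤ 1 := by
    have := finrank_span_le_card (R := F) ({u₁} : Set V)
    simpa using this
  have h4 := LinearMap.finrank_range_add_finrank_ker N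
  omega

end gen

theorem main : Cfsg.Agent.Lib.Helper45.OMiStmt.PFixCM.{u} := by
  intro F _ _ hodd d m hd a b hab hm x hx u₁ hu₁ hQu hFle hN2 W hWm hWnd hWst
  have h2 : (2 : F) ≠ 0 := Cfsg.Agent.Lib.Helper10.HypINVOL.two_ne_zero_of_odd hodd
  have hS : MSplit.{u} := Cfsg.Agent.Lib.Helper97.MSPLIT.main
  have hC : MPFixC.{u} := Cfsg.Agent.Lib.Helper94.MPFIXC.main hS
    Cfsg.Agent.Lib.Helper97.MRANK.main Cfsg.Agent.Lib.Helper33.MTYPE.main
  have hA : ∀ v, minusQ (d - 1) F a b (Matrix.toLin' (x : Matrix (Mi d) (Mi d) F) v) =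
      minusQ (d - 1) F a b v := by
    intro v
    rw [Matrix.toLin'_apply]
    exact hx v v
  have hfix : ∀ w : Mi d → F, w ∈ Cfsg.Agent.Lib.Helper94.OMiPStmt.FxM
      (x : Matrix (Mi d) (Mi d) F) → Matrix.toLin' (x : Matrix (Mi d) (Mi d) F) w = w := by
    intro w hw
    have h := LinearMap.mem_ker.mp hw
    rw [LinearMap.sub_apply, LinearMap.id_apply, sub_eq_zero] at h
    exact h
  have hu₁' : Matrix.toLin' (x : Matrix (Mi d) (Mi d) F) u₁ = u₁ := hfix u₁ hu₁
  have hV : finrank F (Mi d → F) = 2 * d := by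
    rw [Module.finrank_fintype_fun_eq_card, Fintype.card_sum, Fintype.card_sum, Fintype.card_fin,
      Fintype.card_fin]
    omega
  have hrank : d ≤ finrank F ↥(LinearMap.range
      (Cfsg.Agent.Lib.Helper94.OMiPStmt.NM (x : Matrix (Mi d) (Mi d) F))) :=
    rank_ge _ u₁ d hV hFle
  have hβ : ∀ w ∈ Cfsg.Agent.Lib.Helper94.OMiPStmt.FxM (x : Matrix (Mi d) (Mi d) F),
      ∃ c : F, Cfsg.quadFormMinus (d - 1) F a b w =
        c * c * Cfsg.quadFormMinus (d - 1) F a b u₁ := by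
    intro w hw
    exact fix_sq h2 (minusQ (d - 1) F a b) _ hA u₁ hu₁' hFle w (hfix w hw)
  rcases hC F hodd d m hd hm a b hab x hx hN2 hrank _ hβ W hWm hWnd hWst with
    ⟨h1, S, hSW, hS0, hSdim, w, hwW, hwS, hwβ⟩ |
    ⟨h1, U, hperp, hdim, S, hSU, hS0, hSdim, w, hwU, hwS, hwβ⟩
  · left
    exact ⟨h1, w, hwW, hwβ, S, hSW, hS0, hwS, hSdim⟩
  · right
    refine ⟨h1, w, ?_, hwβ, S, ?_, hS0, hwS, ?_⟩
    · intro w' hw'
      rw [QuadraticMap.polar_comm]
      exact (hperp w).mp hwU w' hw'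
    · intro v hv w' hw'
      rw [QuadraticMap.polar_comm]
      exact (hperp v).mp (hSU hv) w' hw'
    · have e1 : 2 * d - Module.finrank F ↥W = Module.finrank F ↥U := by
        rw [← hdim]
        exact Nat.add_sub_cancel_left _ _
      exact hSdim.trans e1.symm

end Cfsg.Agent.Lib.Helper33.OMiPFIXCM
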