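import Mathlib
import Cfsg.Agent.Lib.Helper37.OrtStmt
import Cfsg.Agent.Lib.Helper65.EluFIXMOD
import Cfsg.Agent.Lib.Helper40.PrimeElts

/-!
# S5981 / EVENCASE (helper33): `i = orderOf (q : ZMod r)` even, `i ≤ n`: the isometry group of
`S` contains a Sylow `r`-subgroup of `SL_n(F)`.
-/

set_option autoImplicit false

namespace Cfsg.Agent.Lib.Helper33.OrtEVENCASE

open scoped Kronecker Matrix
open Cfsg.Agent.Lib.Helper37.OrtStmt

universe u

section blocks

variable {F : Type u} [Field F] {α β : Type} [Fintype α] [Fintype β] [DecidableEq α]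
  [DecidableEq β]

theorem bk_mul (A A' : Matrix α α F) (D D' : Matrix β β F) :
    Matrix.fromBlocks A 0 0 D * Matrix.fromBlocks A' 0 0 D' =
      Matrix.fromBlocks (A * A') 0 0 (D * D') := by
  rw [Matrix.fromBlocks_multiply]
  simp

theorem bk_transpose (A : Matrix α α F) (D : Matrix β β F) :
    (Matrix.fromBlocks A (0 : Matrix α β F) (0 : Matrix β α F) D)ᵀ =
      Matrix.fromBlocks Aᵀ 0 0 Dᵀ := by
  rw [Matrix.fromBlocks_transpose]
  simp

theorem bk_pow (A : Matrix α α F) (D : Matrix β β F) (k : ℕ) :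
    (Matrix.fromBlocks A (0 : Matrix α β F) (0 : Matrix β α F) D) ^ k =
      Matrix.fromBlocks (A ^ k) 0 0 (D ^ k) := by
  induction k with
  | zero => rw [pow_zero, pow_zero, pow_zero, Matrix.fromBlocks_one]
  | succ k ih => rw [pow_succ, ih, bk_mul, ← pow_succ, ← pow_succ]

theorem bk_det (A : Matrix α α F) (D : Matrix β β F) :
    (Matrix.fromBlocks A (0 : Matrix α β F) (0 : Matrix β α F) D).det = A.det * D.det :=
  Matrix.det_fromBlocks_zero₂₁ A 0 D

theorem bk_sub_one (A : Matrix α α F) (D : Matrix β β F) :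
    Matrix.fromBlocks A (0 : Matrix α β F) (0 : Matrix β α F) D - 1 =
      Matrix.fromBlocks (A - 1) 0 0 (D - 1) := by
  apply sub_eq_of_eq_add
  rw [← Matrix.fromBlocks_one, Matrix.fromBlocks_add]
  simp

theorem bk_add_one (A : Matrix α α F) (D : Matrix β β F) :
    Matrix.fromBlocks A (0 : Matrix α β F) (0 : Matrix β α F) D + 1 =
      Matrix.fromBlocks (A + 1) 0 0 (D + 1) := by
  rw [← Matrix.fromBlocks_one, Matrix.fromBlocks_add]
  simp

theorem k_mul (A B : Matrix β β F) :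
    ((1 : Matrix α α F) ⊗ₖ A) * ((1 : Matrix α α F) ⊗ₖ B) = (1 : Matrix α α F) ⊗ₖ (A * B) := by
  rw [← Matrix.mul_kronecker_mul, Matrix.one_mul]

theorem k_transpose (A : Matrix β β F) :
    ((1 : Matrix α α F) ⊗ₖ A)ᵀ = (1 : Matrix α α F) ⊗ₖ Aᵀ := by
  have h := Matrix.kroneckerMap_transpose (fun a b : F => a * b) (1 : Matrix α α F) A
  rw [Matrix.transpose_one] at h
  exact h.symm

theorem k_pow (A : Matrix β β F) (k : ℕ) :
    ((1 : Matrix α α F) ⊗ₖ A) ^ k = (1 : Matrix α α F) ⊗ₖ (A ^ k) := by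
  induction k with
  | zero => rw [pow_zero, pow_zero, Matrix.one_kronecker_one]
  | succ k ih => rw [pow_succ, ih, k_mul, ← pow_succ]

theorem k_det (A : Matrix β β F) :
    ((1 : Matrix α α F) ⊗ₖ A).det = A.det ^ Fintype.card α := by
  rw [Matrix.det_kronecker, Matrix.det_one, one_pow, one_mul]

theorem k_sub_one (A : Matrix β β F) :
    ((1 : Matrix α α F) ⊗ₖ A) - 1 = (1 : Matrix α α F) ⊗ₖ (A - 1) := by
  apply sub_eq_of_eq_add
  rw [← Matrix.one_kronecker_one (α := F) (m := α) (n := β), ← Matrix.kronecker_add,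
    sub_add_cancel]

theorem k_add_one (A : Matrix β β F) :
    ((1 : Matrix α α F) ⊗ₖ A) + 1 = (1 : Matrix α α F) ⊗ₖ (A + 1) := by
  rw [← Matrix.one_kronecker_one (α := F) (m := α) (n := β), ← Matrix.kronecker_add]

end blocks

theorem toLin_pow {F : Type u} [Field F] {ι : Type} [Fintype ι] [DecidableEq ι]
    (y : Matrix ι ι F) (k : ℕ) : (Matrix.toLin' y) ^ k = Matrix.toLin' (y ^ k) := by
  induction k with
  | zero => rw [pow_zero, pow_zero, Matrix.toLin'_one]; rfl
  | succ k ih => rw [pow_succ, pow_succ, ih, Matrix.toLin'_mul]; rfl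

theorem core {F : Type u} [Field F] [Fintype F] (r : ℕ) [Fact r.Prime] (hr2 : r ≠ 2)
    (hWr : WrOrd.{u}) (hOC : OCong.{u}) (hCay : Cayley.{u}) (h2 : (2 : F) ≠ 0)
    (hroot : ∀ z : F, z ^ r = 1 → z = 1)
    (i a n : ℕ) (hi1 : 1 ≤ i) (hin : i ≤ n) (ha : 1 ≤ a)
    (c : GL (Fin i) F) (N : Matrix (Fin i) (Fin i) F) (hc : orderOf c = r ^ a)
    (hNs : Nᵀ = N) (hNd : N.det ≠ 0)
    (hcN : (c : Matrix (Fin i) (Fin i) F)ᵀ * N * (c : Matrix (Fin i) (Fin i) F) = N)
    (hfix : ∀ y : Matrix (Fin i) (Fin i) F, y ^ r = 1 → y ≠ 1 → (y - 1).det ≠ 0)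
    (S : Matrix (Fin n) (Fin n) F) (hSsym : Sᵀ = S) (hSdet : S.det ≠ 0)
    (hH : ∀ x : Matrix (Fin n) (Fin n) F, x.det = 1 → x ^ r = 1 →
      (∀ z : F, x ≠ z • (1 : Matrix (Fin n) (Fin n) F)) →
      ∃ S' : Matrix (Fin n) (Fin n) F, S'ᵀ = S' ∧ S'.det = S.det ∧ xᵀ * S' * x = S') :
    (r ^ a) ^ (n / i) * Nat.factorial (n / i) ∣ Nat.card (OGrp S) := by
  classical
  have hr : r.Prime := Fact.out
  obtain ⟨m, hm⟩ : ∃ m, m = n / i := ⟨_, rfl⟩
  obtain ⟨n₀, hn₀⟩ : ∃ n₀, n₀ = n % i := ⟨_, rfl⟩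
  rw [← hm]
  have hm1 : 0 < m := by
    rw [hm]
    exact Nat.div_pos hin hi1
  have hcard : Fintype.card ((Fin m × Fin i) ⊕ Fin n₀) = n := by
    rw [Fintype.card_sum, Fintype.card_prod, Fintype.card_fin, Fintype.card_fin,
      Fintype.card_fin, hm, hn₀]
    exact Nat.div_add_mod' n i
  suffices hsuff : ∃ (S₀ : Matrix (Fin n₀) (Fin n₀) F) (μ : F), S₀ᵀ = S₀ ∧ μ ≠ 0 ∧
      (Matrix.fromBlocks ((1 : Matrix (Fin m) (Fin m) F) ⊗ₖ N) 0 0 S₀).det = S.det * μ ^ 2 by
    obtain ⟨S₀, μ, hS₀, hμ, hdet⟩ := hsuff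
    have h1 := hWr F i m n₀ hi1 c N S₀ hcN
    rw [hc] at h1
    have hsym : (Matrix.fromBlocks ((1 : Matrix (Fin m) (Fin m) F) ⊗ₖ N) 0 0 S₀)ᵀ =
        Matrix.fromBlocks ((1 : Matrix (Fin m) (Fin m) F) ⊗ₖ N) 0 0 S₀ := by
      rw [bk_transpose, k_transpose, hNs, hS₀]
    have h3 := hOC F h2 ((Fin m × Fin i) ⊕ Fin n₀) n hcard S _ hSsym hSdet hsym μ hμ hdet
    rw [← h3]
    exact h1
  have hdetS : ∀ S₀ : Matrix (Fin n₀) (Fin n₀) F,
      (Matrix.fromBlocks ((1 : Matrix (Fin m) (Fin m) F) ⊗ₖ N) 0 0 S₀).det =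
        N.det ^ m * S₀.det := by
    intro S₀
    rw [bk_det, k_det, Fintype.card_fin]
  by_cases hn0 : n₀ = 0
  · haveI : IsEmpty (Fin n₀) := by
      rw [hn0]
      infer_instance
    obtain ⟨y, hy⟩ : ∃ y : Matrix (Fin i) (Fin i) F,
        y = (c : Matrix (Fin i) (Fin i) F) ^ (r ^ (a - 1)) := ⟨_, rfl⟩
    have hpowN : ∀ k : ℕ, ((c : Matrix (Fin i) (Fin i) F) ^ k)ᵀ * N *
        (c : Matrix (Fin i) (Fin i) F) ^ k = N := by
      intro k
      induction k with
      | zero => simp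
      | succ k ih =>
        rw [pow_succ, Matrix.transpose_mul]
        calc (c : Matrix (Fin i) (Fin i) F)ᵀ * ((c : Matrix (Fin i) (Fin i) F) ^ k)ᵀ * N *
              ((c : Matrix (Fin i) (Fin i) F) ^ k * (c : Matrix (Fin i) (Fin i) F))
            = (c : Matrix (Fin i) (Fin i) F)ᵀ * (((c : Matrix (Fin i) (Fin i) F) ^ k)ᵀ * N *
              (c : Matrix (Fin i) (Fin i) F) ^ k) * (c : Matrix (Fin i) (Fin i) F) := by
                simp only [Matrix.mul_assoc]
          _ = N := by rw [ih, hcN]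
    have hyN : yᵀ * N * y = N := by
      rw [hy]
      exact hpowN _
    have hyr : y ^ r = 1 := by
      rw [hy, ← pow_mul, ← pow_succ, Nat.sub_add_cancel ha]
      have h1 : c ^ (r ^ a) = 1 := by
        rw [← hc]
        exact pow_orderOf_eq_one c
      have h3 := congrArg (fun g : GL (Fin i) F => (g : Matrix (Fin i) (Fin i) F)) h1
      simpa using h3
    have hy1 : y ≠ 1 := by
      intro h
      have h1 : c ^ (r ^ (a - 1)) = 1 := by
        apply Units.ext
        rw [Units.val_pow_eq_pow_val, ← hy, h]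
        rfl
      have h3 := orderOf_dvd_of_pow_eq_one h1
      rw [hc] at h3
      have h4 := (Nat.pow_dvd_pow_iff_le_right hr.one_lt).mp h3
      omega
    have hdy : y.det = 1 := by
      apply hroot
      rw [← Matrix.det_pow, hyr, Matrix.det_one]
    have hy_sub : (y - 1).det ≠ 0 := hfix y hyr hy1
    have hy_add : (y + 1).det ≠ 0 := by
      have hyy1 : y * y ≠ 1 := by
        intro h
        apply hy1
        obtain ⟨t, ht⟩ := hr.odd_of_ne_two hr2
        have h5 : y ^ r = y := by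
          rw [ht, pow_succ, pow_mul, pow_two, h, one_pow, one_mul]
        rw [← h5, hyr]
      have hyyr : (y * y) ^ r = 1 := by
        rw [(Commute.refl y).mul_pow, hyr, one_mul]
      have h4 := hfix (y * y) hyyr hyy1
      have h5 : y * y - 1 = (y - 1) * (y + 1) := by noncomm_ring
      rw [h5, Matrix.det_mul] at h4
      exact right_ne_zero_of_mul h4
    obtain ⟨X, hX⟩ : ∃ X : Matrix ((Fin m × Fin i) ⊕ Fin n₀) ((Fin m × Fin i) ⊕ Fin n₀) F,
        X = Matrix.fromBlocks ((1 : Matrix (Fin m) (Fin m) F) ⊗ₖ y) 0 0 1 := ⟨_, rfl⟩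
    obtain ⟨Sm, hSm⟩ : ∃ Sm : Matrix ((Fin m × Fin i) ⊕ Fin n₀) ((Fin m × Fin i) ⊕ Fin n₀) F,
        Sm = Matrix.fromBlocks ((1 : Matrix (Fin m) (Fin m) F) ⊗ₖ N) 0 0 1 := ⟨_, rfl⟩
    have hXdet : X.det = 1 := by
      rw [hX, bk_det, k_det, hdy, one_pow, Matrix.det_one, one_mul]
    have hXr : X ^ r = 1 := by
      rw [hX, bk_pow, k_pow, hyr, one_pow, Matrix.one_kronecker_one, Matrix.fromBlocks_one]
    have hXS : Xᵀ * Sm * X = Sm := by
      rw [hX, hSm, bk_transpose, bk_mul, bk_mul, k_transpose, k_mul, k_mul, hyN,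
        Matrix.transpose_one, Matrix.one_mul, Matrix.one_mul]
    have hXsub : (X - 1).det ≠ 0 := by
      have hD : ((1 : Matrix (Fin n₀) (Fin n₀) F) - 1).det = 1 := Matrix.det_isEmpty
      rw [hX, bk_sub_one, bk_det, k_sub_one, k_det, hD, mul_one]
      exact pow_ne_zero _ hy_sub
    have hXadd : (X + 1).det ≠ 0 := by
      have hD : ((1 : Matrix (Fin n₀) (Fin n₀) F) + 1).det = 1 := Matrix.det_isEmpty
      rw [hX, bk_add_one, bk_det, k_add_one, k_det, hD, mul_one]
      exact pow_ne_zero _ hy_add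
    have hSmsym : Smᵀ = Sm := by
      rw [hSm, bk_transpose, k_transpose, hNs, Matrix.transpose_one]
    have hSmdet : Sm.det = N.det ^ m := by
      rw [hSm, hdetS, Matrix.det_one, mul_one]
    have hXns : ∀ z : F, X ≠ z • (1 : Matrix ((Fin m × Fin i) ⊕ Fin n₀) ((Fin m × Fin i) ⊕ Fin n₀) F) := by
      intro z hz
      have hyz : y = z • (1 : Matrix (Fin i) (Fin i) F) := by
        ext j j'
        have h1 := congrFun (congrFun hz (Sum.inl (⟨0, hm1⟩, j))) (Sum.inl (⟨0, hm1⟩, j'))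
        rw [hX] at h1
        simp only [Matrix.fromBlocks_apply₁₁, Matrix.kroneckerMap_apply, Matrix.one_apply_eq,
          one_mul, Matrix.smul_apply, smul_eq_mul] at h1
        rw [h1, Matrix.smul_apply, smul_eq_mul]
        by_cases hjj : j = j'
        · subst hjj
          rw [Matrix.one_apply_eq, Matrix.one_apply_eq]
        · rw [Matrix.one_apply_ne hjj, Matrix.one_apply_ne]
          intro h
          apply hjj
          have h' := Sum.inl_injective h
          exact (Prod.mk.injEq _ _ _ _ ▸ h').2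
      have hzr : z ^ r = 1 := by
        have h1 := hyr
        rw [hyz, smul_pow, one_pow] at h1
        have h3 := congrFun (congrFun h1 ⟨0, hi1⟩) ⟨0, hi1⟩
        simpa using h3
      apply hy1
      rw [hyz, hroot z hzr, one_smul]
    obtain ⟨ρ, hρ⟩ : ∃ ρ : Matrix ((Fin m × Fin i) ⊕ Fin n₀) ((Fin m × Fin i) ⊕ Fin n₀) F ≃ₐ[F]
        Matrix (Fin n) (Fin n) F,
        ρ = Matrix.reindexAlgEquiv F F (Fintype.equivFinOfCardEq hcard) := ⟨_, rfl⟩
    have hρT : ∀ A, (ρ A)ᵀ = ρ Aᵀ := by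
      intro A
      rw [hρ, Matrix.reindexAlgEquiv_apply, Matrix.reindexAlgEquiv_apply,
        Matrix.transpose_reindex]
    have hρdet : ∀ A, (ρ A).det = A.det := by
      intro A
      rw [hρ]
      exact Matrix.det_reindexAlgEquiv F F _ A
    obtain ⟨S', hS'sym, hS'det, hS'x⟩ := hH (ρ X) (by rw [hρdet, hXdet])
      (by rw [← map_pow, hXr, map_one]) (by
        intro z hz
        apply hXns z
        apply ρ.injective
        rw [hz, map_smul, map_one])
    have hc2 : (ρ X)ᵀ * ρ Sm * ρ X = ρ Sm := by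
      rw [hρT, ← map_mul, ← map_mul, hXS]
    have hsub' : (ρ X - 1).det ≠ 0 := by
      have h5 : ρ X - 1 = ρ (X - 1) := by rw [map_sub, map_one]
      rw [h5, hρdet]
      exact hXsub
    have hadd' : (ρ X + 1).det ≠ 0 := by
      have h5 : ρ X + 1 = ρ (X + 1) := by rw [map_add, map_one]
      rw [h5, hρdet]
      exact hXadd
    obtain ⟨μ, hμ0, hμ⟩ := hCay F h2 n S' (ρ Sm) (ρ X) hS'sym (by rw [hS'det]; exact hSdet)
      (by rw [hρT, hSmsym]) (by rw [hρdet, hSmdet]; exact pow_ne_zero _ hNd) hS'x hc2 hsub' hadd'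
    rw [hS'det, hρdet, hSmdet] at hμ
    refine ⟨1, μ⁻¹, Matrix.transpose_one, inv_ne_zero hμ0, ?_⟩
    rw [hdetS, Matrix.det_one, mul_one, hμ]
    field_simp
  · have hpos : 0 < n₀ := Nat.pos_of_ne_zero hn0
    refine ⟨Matrix.diagonal (fun j : Fin n₀ => if j = ⟨0, hpos⟩ then S.det / N.det ^ m else 1),
      1, Matrix.diagonal_transpose _, one_ne_zero, ?_⟩
    rw [hdetS, Matrix.det_diagonal, Finset.prod_ite_eq', if_pos (Finset.mem_univ _)]
    have hNm : N.det ^ m ≠ 0 := pow_ne_zero _ hNd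
    field_simp

theorem main : SingerC.{u} → WrOrd.{u} → OCong.{u} → Cayley.{u} → LTE.{u} → EvenCase.{u} := by
  intro hSing hWr hOC hCay hLTE F _ _ p _ _ r _ h2 hr2 hrp hi2 hiev n hin S hSsym hSdet hH
  classical
  have hr : r.Prime := Fact.out
  obtain ⟨c, N, hc, hNs, hNd, hcN⟩ := hSing F p r h2 hr2 hrp hi2 hiev
  have hLb := hLTE F p r hr2 hrp hi2 n
  have hroot : ∀ z : F, z ^ r = 1 → z = 1 := fun z hz =>
    Cfsg.Agent.Lib.Helper40.PrimeElts.root_trivial r hr (by omega) z hz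
  have hq2 : 2 ≤ Fintype.card F := Fintype.one_lt_card
  have ha : 1 ≤ padicValNat r
      (Fintype.card F ^ orderOf ((Fintype.card F : ℕ) : ZMod r) - 1) := by
    apply one_le_padicValNat_of_dvd
    · have h4 : 1 < Fintype.card F ^ orderOf ((Fintype.card F : ℕ) : ZMod r) :=
        Nat.one_lt_pow (by omega) (by omega)
      omega
    · exact (Cfsg.Agent.Lib.Helper40.CycloVal.dvd_pow_sub_one_iff (Fintype.card F) r
        Fintype.card_pos _).mpr dvd_rfl
  have hfix : ∀ y : Matrix (Fin (orderOf ((Fintype.card F : ℕ) : ZMod r)))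
      (Fin (orderOf ((Fintype.card F : ℕ) : ZMod r))) F, y ^ r = 1 → y ≠ 1 →
      (y - 1).det ≠ 0 := by
    intro y hyr hy1 hdet
    obtain ⟨v, hv0, hv⟩ := Matrix.exists_mulVec_eq_zero_iff.mpr hdet
    have hφ : (Matrix.toLin' y) ^ r = 1 := by
      rw [toLin_pow, hyr, Matrix.toLin'_one]
      rfl
    obtain ⟨m', hm'⟩ := Cfsg.Agent.Lib.Helper65.EluFIXMOD.main F p r hrp
      (Fin (orderOf ((Fintype.card F : ℕ) : ZMod r)) → F) (Matrix.toLin' y) hφ ⊤
      (fun _ _ => Submodule.mem_top)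
    rw [finrank_top, Module.finrank_fintype_fun_eq_card, Fintype.card_fin, top_inf_eq] at hm'
    have hvk : v ∈ LinearMap.ker (Matrix.toLin' y - 1) := by
      rw [LinearMap.mem_ker, LinearMap.sub_apply, Matrix.toLin'_apply]
      have h5 : (y - 1).mulVec v = y.mulVec v - v := by
        rw [Matrix.sub_mulVec, Matrix.one_mulVec]
      rw [h5] at hv
      exact hv
    rcases Nat.eq_zero_or_pos m' with h0 | h0
    · rw [h0, mul_zero, add_zero] at hm'
      have htop : LinearMap.ker (Matrix.toLin' y - 1) = ⊤ := by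
        apply Submodule.eq_top_of_finrank_eq
        rw [← hm', Module.finrank_fintype_fun_eq_card, Fintype.card_fin]
      apply hy1
      apply Matrix.toLin'.injective
      rw [Matrix.toLin'_one]
      apply LinearMap.ext
      intro w
      have hw : w ∈ LinearMap.ker (Matrix.toLin' y - 1) := by
        rw [htop]
        exact Submodule.mem_top
      rw [LinearMap.mem_ker, LinearMap.sub_apply, sub_eq_zero] at hw
      exact hw
    · have hk0 : Module.finrank F ↥(LinearMap.ker (Matrix.toLin' y - 1)) = 0 := by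
        have h6 : orderOf ((Fintype.card F : ℕ) : ZMod r) ≤
            orderOf ((Fintype.card F : ℕ) : ZMod r) * m' := Nat.le_mul_of_pos_right _ h0
        omega
      have hbot : LinearMap.ker (Matrix.toLin' y - 1) = ⊥ := Submodule.finrank_eq_zero.mp hk0
      rw [hbot, Submodule.mem_bot] at hvk
      exact hv0 hvk
  have hcore := core r hr2 hWr hOC hCay h2 hroot _ _ n (by omega) hin ha c N hc hNs hNd hcN
    hfix S hSsym hSdet hH
  refine ⟨padicValNat r (Fintype.card F ^ orderOf ((Fintype.card F : ℕ) : ZMod r) - 1) *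
      (n / orderOf ((Fintype.card F : ℕ) : ZMod r)) +
      padicValNat r (Nat.factorial (n / orderOf ((Fintype.card F : ℕ) : ZMod r))), ?_, hLb⟩
  refine Dvd.dvd.trans ?_ hcore
  rw [pow_add, pow_mul]
  exact mul_dvd_mul_left _ pow_padicValNat_dvd

end Cfsg.Agent.Lib.Helper33.OrtEVENCASE
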