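import Mathlib
import Cfsg.Agent.Lib.Helper18.ReeMultStmt

/-!
# S2113, piece TT: the commutator of lifts of `x t 0 0`, `x t' 0 0` is a canonical lift.

The `ker σ`-component `Δ t t'` of `cm (x t 0 0) (x t' 0 0)` with respect to the complement
`A₁ = {lft u v}` is biadditive and invariant under `(t, t') ↦ (χ(s) t, χ(s) t')`; `χ` is onto the
nonzero elements (`χ(c² φ(c)³) = c`), so `Δ = 1` by `SQFORM`.
-/

set_option autoImplicit false

namespace Cfsg.Agent.Lib.Helper33.ReeMultTT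

open Cfsg.Agent.Lib.Helper18 Cfsg.Agent.Lib.Helper18.ReeMultStmt

open scoped commutatorElement IsMulCommutative

universe u v w

/-- commutators of elements `x t u v` lie in `A = {x 0 a b}` -/
theorem comm_in_A {G : Type u} [Group G] {K : Type v} [Field K] [Fintype K] {m : ℕ}
    {φ : K →+* K} {x : K → K → K → G} {e : K → G} (P : ReeOutStmt.OPar G K m φ x e)
    (t u v t' u' v' : K) : ∃ a b, ⁅x t u v, x t' u' v'⁆ = x 0 a b := by
  have h1 := P.x_mul t u v t' u' v'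
  have h2 := P.x_mul t' u' v' t u v
  rw [add_comm t' t] at h2
  have h3 : ∀ T U V U' V' : K,
      x T U V = x 0 (U - U') (V - V' + (U - U') * T) * x T U' V' := by
    intro T U V U' V'
    rw [P.x_mul]
    congr 1 <;> ring
  have h4 : ∃ a b, x t u v * x t' u' v' = x 0 a b * (x t' u' v' * x t u v) :=
    ⟨_, _, by rw [h1, h2]; exact h3 _ _ _ _ _⟩
  obtain ⟨a, b, h5⟩ := h4
  exact ⟨a, b, by rw [commutatorElement_def, h5]; group⟩

theorem main (hEXR : EXR.{v}) (hSQ : SQFORM.{v, w}) (hLMAP : LMAP.{u, v, w})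
    (hLMUL : LMUL.{u, v, w}) (hLCONJH : LCONJH.{u, v, w}) : TT.{u, v, w} := by
  intro Γ _ G _ K _ _ m φ x e σ E s₁ hs₁ hs₁3 hZ hA hconj
  have P := E.par
  have hc := E.cen
  have hcen : ∀ k ∈ σ.ker, ∀ g : Γ, g * k = k * g :=
    fun k hk g => Subgroup.mem_center_iff.mp (hc hk) g
  obtain ⟨L, hLdef⟩ : ∃ L : K → K → Γ, ∀ u v, L u v = lft σ E.surj φ x e s₁ u v :=
    ⟨_, fun _ _ => rfl⟩
  have L1 : ∀ u v, σ (L u v) = x 0 u v := fun u v => by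
    rw [hLdef]; exact hLMAP Γ G K m φ x e σ E s₁ hs₁ hs₁3 u v
  have L2 : ∀ u v u' v', L u v * L u' v' = L (u + u') (v + v') := fun u v u' v' => by
    simp only [hLdef]; exact hLMUL Γ G K m φ x e σ E s₁ hs₁ hs₁3 hA u v u' v'
  have L3 : ∀ (γ : Γ) (t u₀ v₀ : K), σ γ = x t u₀ v₀ →
      ∀ u v, γ * L u v * γ⁻¹ = L u (v + u * t) := fun γ t u₀ v₀ h u v => by
    simp only [hLdef]; exact hconj γ t u₀ v₀ h u v
  have L4 : ∀ (γ : Γ) (s : K), s ≠ 0 → σ γ = e s →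
      ∀ u v, γ * L u v * γ⁻¹ = L (φ s ^ 3 / s * u) (s * v) := fun γ s hs h u v => by
    simp only [hLdef]; exact hLCONJH Γ G K m φ x e σ E s₁ hs₁ γ s hs h u v
  have L0 : L 0 0 = 1 := by
    have h := L2 0 0 0 0
    rw [add_zero] at h
    exact mul_left_cancel (h.trans (mul_one _).symm)
  have Linv : ∀ u v, (L u v)⁻¹ = L (-u) (-v) := by
    intro u v
    exact inv_eq_of_mul_eq_one_right (by rw [L2, add_neg_cancel, add_neg_cancel, L0])
  -- cosets `k · A₁`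
  obtain ⟨R, hR⟩ : ∃ R : Γ → Γ → Prop,
      ∀ g k, R g k ↔ (k ∈ σ.ker ∧ ∃ a b, g = k * L a b) := ⟨_, fun _ _ => Iff.rfl⟩
  have R1 : ∀ g k k', R g k → R g k' → k = k' := by
    intro g k k' h h'
    obtain ⟨hk, a, b, rfl⟩ := (hR _ _).1 h
    obtain ⟨hk', a', b', h2⟩ := (hR _ _).1 h'
    have h3 := congrArg σ h2
    rw [map_mul, map_mul, MonoidHom.mem_ker.mp hk, MonoidHom.mem_ker.mp hk', one_mul, one_mul,
      L1, L1] at h3
    obtain ⟨-, ha, hb⟩ := P.x_inj _ _ _ _ _ _ h3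
    rw [ha, hb] at h2
    exact mul_right_cancel h2
  have R2 : ∀ g k g' k', R g k → R g' k' → R (g * g') (k * k') := by
    intro g k g' k' h h'
    obtain ⟨hk, a, b, rfl⟩ := (hR _ _).1 h
    obtain ⟨hk', a', b', rfl⟩ := (hR _ _).1 h'
    refine (hR _ _).2 ⟨mul_mem hk hk', a + a', b + b', ?_⟩
    rw [← L2]
    have := hcen k' hk' (L a b)
    calc k * L a b * (k' * L a' b') = k * (L a b * k') * L a' b' := by group
      _ = k * (k' * L a b) * L a' b' := by rw [this]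
      _ = k * k' * (L a b * L a' b') := by group
  have R3 : ∀ (γ : Γ) (t u₀ v₀ : K), σ γ = x t u₀ v₀ → ∀ g k, R g k → R (γ * g * γ⁻¹) k := by
    intro γ t u₀ v₀ hγ g k h
    obtain ⟨hk, a, b, rfl⟩ := (hR _ _).1 h
    refine (hR _ _).2 ⟨hk, a, b + a * t, ?_⟩
    rw [← L3 γ t u₀ v₀ hγ]
    have := hcen k hk γ
    calc γ * (k * L a b) * γ⁻¹ = (γ * k) * L a b * γ⁻¹ := by group
      _ = k * γ * L a b * γ⁻¹ := by rw [this]
      _ = k * (γ * L a b * γ⁻¹) := by group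
  have R3' : ∀ (γ : Γ) (s : K), s ≠ 0 → σ γ = e s → ∀ g k, R g k → R (γ * g * γ⁻¹) k := by
    intro γ s hs hγ g k h
    obtain ⟨hk, a, b, rfl⟩ := (hR _ _).1 h
    refine (hR _ _).2 ⟨hk, φ s ^ 3 / s * a, s * b, ?_⟩
    rw [← L4 γ s hs hγ]
    have := hcen k hk γ
    calc γ * (k * L a b) * γ⁻¹ = (γ * k) * L a b * γ⁻¹ := by group
      _ = k * γ * L a b * γ⁻¹ := by rw [this]
      _ = k * (γ * L a b * γ⁻¹) := by group
  have R4 : ∀ g k, R g k → R g⁻¹ k⁻¹ := by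
    intro g k h
    obtain ⟨hk, a, b, rfl⟩ := (hR _ _).1 h
    refine (hR _ _).2 ⟨inv_mem hk, -a, -b, ?_⟩
    rw [← Linv, mul_inv_rev]
    exact hcen k⁻¹ (inv_mem hk) (L a b)⁻¹
  -- the defect
  have hcomm : ∀ t t' : K, ∃ a b, ⁅x t 0 0, x t' 0 0⁆ = x 0 a b :=
    fun t t' => comm_in_A P t 0 0 t' 0 0
  choose pa pb hp using hcomm
  obtain ⟨Δ, hΔ⟩ : ∃ Δ : K → K → Γ, ∀ t t',
      Δ t t' = cm σ E.surj (x t 0 0) (x t' 0 0) * (L (pa t t') (pb t t'))⁻¹ :=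
    ⟨_, fun _ _ => rfl⟩
  have hΔker : ∀ t t', Δ t t' ∈ σ.ker := by
    intro t t'
    rw [MonoidHom.mem_ker, hΔ, map_mul, map_inv, map_cm, L1, hp, mul_inv_cancel]
  have R5 : ∀ t t', R (cm σ E.surj (x t 0 0) (x t' 0 0)) (Δ t t') := by
    intro t t'
    refine (hR _ _).2 ⟨hΔker t t', pa t t', pb t t', ?_⟩
    rw [hΔ, inv_mul_cancel_right]
  have hxa : ∀ T U V : K, x T U V = x T 0 0 * x 0 U V := by
    intro T U V
    rw [P.x_mul]
    congr 1 <;> simp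
  have hadd : ∀ t₁ t₂ t', Δ t₂ t' * Δ t₁ t' = 1 * Δ (t₁ + t₂) t' := by
    intro t₁ t₂ t'
    have e1 := cm_mul_left σ E.surj hc (x t₁ 0 0) (x t₂ 0 0) (x t' 0 0)
    have r1 : R (cm σ E.surj (x t₁ 0 0 * x t₂ 0 0) (x t' 0 0)) (Δ t₂ t' * Δ t₁ t') := by
      rw [e1]
      exact R2 _ _ _ _ (R3 _ t₁ 0 0 (sec_spec σ E.surj _) _ _ (R5 t₂ t')) (R5 t₁ t')
    have r6 : ∀ U V : K, R (cm σ E.surj (x 0 U V) (x t' 0 0)) 1 := by
      intro U V
      have h1 : cm σ E.surj (x 0 U V) (x t' 0 0) = ⁅L U V, sec σ E.surj (x t' 0 0)⁆ := by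
        rw [cm_eq σ E.surj hc, L1, sec_spec]
      have h2 := L3 (sec σ E.surj (x t' 0 0)) t' 0 0 (sec_spec σ E.surj _) (-U) (-V)
      refine (hR _ _).2 ⟨one_mem _, U + -U, V + (-V + -U * t'), ?_⟩
      rw [h1, one_mul, ← L2, ← h2, ← Linv, commutatorElement_def]
      group
    have e3 := fun U V : K => cm_mul_left σ E.surj hc (x (t₁ + t₂) 0 0) (x 0 U V) (x t' 0 0)
    have r2 : R (cm σ E.surj (x t₁ 0 0 * x t₂ 0 0) (x t' 0 0)) (1 * Δ (t₁ + t₂) t') := by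
      rw [P.x_mul, hxa (t₁ + t₂) _ _, e3]
      exact R2 _ _ _ _ (R3 _ (t₁ + t₂) 0 0 (sec_spec σ E.surj _) _ _ (r6 _ _)) (R5 _ _)
    exact R1 _ _ _ r1 r2
  have hanti : ∀ t t', Δ t' t = (Δ t t')⁻¹ := by
    intro t t'
    have h1 := R4 _ _ (R5 t t')
    rw [cm_inv] at h1
    exact R1 _ _ _ (R5 t' t) h1
  have hinv : ∀ s : K, s ≠ 0 → ∀ t t',
      Δ (s ^ 2 / φ s ^ 3 * t) (s ^ 2 / φ s ^ 3 * t') = Δ t t' := by
    intro s hs t t'
    have hex : ∀ t : K, e s * x t 0 0 * (e s)⁻¹ = x (s ^ 2 / φ s ^ 3 * t) 0 0 := by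
      intro t
      rw [P.e_x s hs, mul_inv_cancel_right, mul_zero, mul_zero]
    have h1 := conj_cm σ E.surj hc (sec σ E.surj (e s)) (x t 0 0) (x t' 0 0)
    rw [sec_spec, hex, hex] at h1
    have h2 := R3' _ s hs (sec_spec σ E.surj _) _ _ (R5 t t')
    rw [h1] at h2
    exact R1 _ _ _ (R5 _ _) h2
  -- the form
  obtain ⟨r, hr0, hr8, -⟩ := hEXR K m P.hm P.cardK
  obtain ⟨B, hBdef⟩ : ∃ B : K → K → Subgroup.center Γ, ∀ t t', (B t t' : Γ) = Δ t t' :=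
    ⟨fun t t' => ⟨Δ t t', hc (hΔker t t')⟩, fun _ _ => rfl⟩
  have hBl : ∀ a a' b, B (a + a') b = B a b * B a' b := by
    intro a a' b
    apply Subtype.ext
    rw [Subgroup.coe_mul, hBdef, hBdef, hBdef]
    have h1 := hadd a a' b
    rw [one_mul] at h1
    rw [← h1]
    exact hcen _ (hΔker a b) _
  have hBr : ∀ a b b', B a (b + b') = B a b * B a b' := by
    intro a b b'
    apply Subtype.ext
    rw [Subgroup.coe_mul, hBdef, hBdef, hBdef]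
    have h1 := hadd b b' a
    rw [one_mul] at h1
    rw [hanti (b + b') a, hanti b a, hanti b' a, ← h1, mul_inv_rev]
  have hBinv : ∀ r a b, r ≠ 0 → B (r ^ 2 * a) (r ^ 2 * b) = B a b := by
    intro r a b hr
    apply Subtype.ext
    rw [hBdef, hBdef]
    have h3 := P.phi3 r
    have hφr : φ r ≠ 0 := (map_ne_zero φ).mpr hr
    have hs : (r ^ 2) ^ 2 * φ (r ^ 2) ^ 3 ≠ 0 :=
      mul_ne_zero (pow_ne_zero 2 (pow_ne_zero 2 hr))
        (pow_ne_zero 3 ((map_ne_zero φ).mpr (pow_ne_zero 2 hr)))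
    have e1 : φ ((r ^ 2) ^ 2 * φ (r ^ 2) ^ 3) ^ 3 = φ r ^ 12 * r ^ 6 := by
      simp only [map_mul, map_pow]
      calc ((φ r ^ 2) ^ 2 * ((φ (φ r)) ^ 2) ^ 3) ^ 3 = φ r ^ 12 * (φ (φ r) ^ 3) ^ 6 := by ring
        _ = φ r ^ 12 * r ^ 6 := by rw [h3]
    have hχ : ((r ^ 2) ^ 2 * φ (r ^ 2) ^ 3) ^ 2 / φ ((r ^ 2) ^ 2 * φ (r ^ 2) ^ 3) ^ 3 = r ^ 2 := by
      rw [e1]
      simp only [map_pow]
      field_simp
    have h4 := hinv _ hs a b
    rw [hχ] at h4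
    exact h4
  have hB := hSQ K (Subgroup.center Γ) B P.char3 ⟨r, hr0, hr8⟩ hBl hBr hBinv
  intro t t'
  refine ⟨pa t t', pb t t', ?_⟩
  have h1 : Δ t t' = 1 := by
    rw [← hBdef, hB t t']
    rfl
  rw [hΔ, mul_inv_eq_one] at h1
  rw [← hLdef]
  exact h1

end Cfsg.Agent.Lib.Helper33.ReeMultTT
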