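import Mathlib
import Cfsg.Agent.Lib.Helper22.S56Stmt

/-!
# S1356 / CNILK1: `K ≠ 1`: `C_M(M_F)` is nilpotent, from `C_M(M_F) ≤ M'` (`CLe`) and the
nilpotency of `M' M_F / M_F` (`NilQF`): the kernel of `C_M(M_F) → M' M_F / M_F` is
`C_M(M_F) ⊓ M_F`, central in `C_M(M_F)`.
-/

set_option autoImplicit false

namespace Cfsg.Agent.Lib.Helper33.S56CNILK1

universe u

open Cfsg Cfsg.Agent.Lib.Helper22.S56Stmt

theorem main (hC : CLe.{u}) (hN : NilQF.{u}) : CNilK1.{u} := by
  intro G _ _ hG M K U hM hKU hK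
  have h1 := hC hG M K U hM hKU hK
  have h3 : (commutator ↥M).map M.subtype = ⁅M, M⁆ := by
    rw [commutator_def, Subgroup.map_commutator, ← MonoidHom.range_eq_map, Subgroup.range_subtype]
  have hCle : Subgroup.centralizer ((Cfsg.fittingHall ↥M : Subgroup ↥M) : Set ↥M) ≤
      commutator ↥M := by
    intro c hc
    have hcG : (c : G) ∈ M ⊓ Subgroup.centralizer ((Cfsg.fittingHallOf M : Subgroup G) : Set G) := by
      refine Subgroup.mem_inf.mpr ⟨c.2, ?_⟩
      rw [Subgroup.mem_centralizer_iff]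
      intro g hg
      have hg' : g ∈ (Cfsg.fittingHall ↥M).map M.subtype := hg
      obtain ⟨g', hg'', rfl⟩ := Subgroup.mem_map.mp hg'
      have h := (Subgroup.mem_centralizer_iff.mp hc) g' hg''
      exact congrArg Subtype.val h
    have h2 := h1 hcG
    rw [← h3] at h2
    obtain ⟨c', hc', hcc'⟩ := Subgroup.mem_map.mp h2
    have : c' = c := Subtype.ext hcc'
    rw [← this]
    exact hc'
  have hnil := hN hG M hM
  obtain ⟨f, hf⟩ : ∃ f : ↥(Subgroup.centralizer ((Cfsg.fittingHall ↥M : Subgroup ↥M) : Set ↥M)) →*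
      ↥((commutator ↥M).map (QuotientGroup.mk' (Cfsg.fittingHall ↥M))),
      ∀ c, ((f c : ↥((commutator ↥M).map (QuotientGroup.mk' (Cfsg.fittingHall ↥M)))) :
        ↥M ⧸ Cfsg.fittingHall ↥M) = QuotientGroup.mk' (Cfsg.fittingHall ↥M) (c : ↥M) :=
    ⟨((QuotientGroup.mk' (Cfsg.fittingHall ↥M)).comp
        (Subgroup.centralizer ((Cfsg.fittingHall ↥M : Subgroup ↥M) : Set ↥M)).subtype).codRestrict _
        (fun c => Subgroup.mem_map_of_mem _ (hCle c.2)), fun c => rfl⟩
  have := hnil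
  apply Subgroup.isNilpotent_of_ker_le_center f
  intro c hc
  have hc1 : f c = 1 := MonoidHom.mem_ker.mp hc
  have hc2 : QuotientGroup.mk' (Cfsg.fittingHall ↥M) (c : ↥M) = 1 := by
    rw [← hf c, hc1]; rfl
  have hc3 : (c : ↥M) ∈ Cfsg.fittingHall ↥M := by
    rw [QuotientGroup.mk'_apply, QuotientGroup.eq_one_iff] at hc2
    exact hc2
  rw [Subgroup.mem_center_iff]
  intro c₂
  have h := (Subgroup.mem_centralizer_iff.mp c₂.2) (c : ↥M) hc3
  apply Subtype.ext
  exact h.symm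

end Cfsg.Agent.Lib.Helper33.S56CNILK1
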