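import Mathlib
import Cfsg.Agent.Lib.Helper49.S82Stmt
import Cfsg.Agent.Lib.Helper23.Transitivity

/-!
# S1382 / W1DATA: for a sigma-decomposition `M = K U M_σ` with `U = ⊥`, `K` is a Hall subgroup
of `M` and a complement of `M_σ` in `M` (from the fields `hall`, `compl` only).
-/

set_option autoImplicit false

namespace Cfsg.Agent.Lib.Helper33.S82W1DATA

universe u

open Cfsg Cfsg.Agent.Lib.Helper49.S82Stmt

theorem main : W1Data.{u} := by
  intro G _ _ hG M K U hM hKU hK hU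
  obtain ⟨hKM, hKpi, hKidx⟩ := hKU.hall
  obtain ⟨-, -, -, hprod⟩ := hKU.compl
  have hsM : Cfsg.sigmaCore M ≤ M := by
    unfold Cfsg.sigmaCore
    exact Subgroup.map_subtype_le _
  have hscard : ∀ p : ℕ, p.Prime → p ∣ Nat.card ↥(Cfsg.sigmaCore M) → p ∈ Cfsg.sigma M := by
    intro p hp hdvd
    have h1 : Nat.card ↥(Cfsg.sigmaCore M) = Nat.card ↥(Cfsg.piCore (Cfsg.sigma M) ↥M) := by
      unfold Cfsg.sigmaCore
      exact Subgroup.card_map_of_injective (Subgroup.subtype_injective _)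
    rw [h1] at hdvd
    exact Cfsg.Agent.Lib.Helper23.Transitivity.isPiNum_card_piCore (G := ↥M) (Cfsg.sigma M) p hp hdvd
  refine ⟨?_, hsM, hKM, ?_, ?_⟩
  · by_contra h
    obtain ⟨p, hp, hpa, hpb⟩ := Nat.Prime.not_coprime_iff_dvd.mp h
    exact hKidx p hp (hKpi p hp hpa) hpb
  · refine disjoint_iff.mp (Subgroup.disjoint_of_coprime_natCard ?_)
    by_contra h
    obtain ⟨p, hp, hpa, hpb⟩ := Nat.Prime.not_coprime_iff_dvd.mp h
    have h1 : p ∈ Cfsg.kappa M := hKpi p hp hpb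
    exact h1.2.2.1 (hscard p hp hpa)
  · intro m hm
    obtain ⟨a, ha, b, hb, hmab⟩ := hprod m hm
    rw [hU, Subgroup.mem_bot] at ha
    rw [ha, one_mul] at hmab
    rw [← hmab] at hb
    -- `m ∈ K ⊔ sigmaCore M`; pass to `↥M`
    have hmap : K ⊔ Cfsg.sigmaCore M =
        (K.subgroupOf M ⊔ Cfsg.piCore (Cfsg.sigma M) ↥M).map M.subtype := by
      rw [Subgroup.map_sup, Subgroup.map_subgroupOf_eq_of_le hKM]
      rfl
    rw [hmap] at hb
    obtain ⟨m', hm', hmm'⟩ := Subgroup.mem_map.mp hb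
    have hm'' : m' ∈ ((Cfsg.piCore (Cfsg.sigma M) ↥M ⊔ K.subgroupOf M : Subgroup ↥M) : Set ↥M) := by
      rw [sup_comm]
      exact hm'
    rw [Subgroup.normal_mul] at hm''
    obtain ⟨s, hs, k, hk, hsk⟩ := Set.mem_mul.mp hm''
    refine ⟨(s : G), Subgroup.mem_map_of_mem M.subtype hs, (k : G), Subgroup.mem_subgroupOf.mp hk, ?_⟩
    rw [← hmm', ← hsk]
    rfl

end Cfsg.Agent.Lib.Helper33.S82W1DATA
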