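import Cfsg.Agent.Lib.Helper33.SecEngel

set_option autoImplicit false
set_option linter.unusedSectionVars false
set_option linter.style.haveILetI false

namespace Cfsg.Agent.Lib.Helper33.SecMin

open Cfsg
open Cfsg.Agent.Lib.Helper33.Conj
open Cfsg.Agent.Lib.Helper33.WellPlaced
open Cfsg.Agent.Lib.Helper33.Control
open Cfsg.Agent.Lib.Helper33.Control2
open Cfsg.Agent.Lib.Helper33.Alperin
open Cfsg.Agent.Lib.Helper33.FamControl
open Cfsg.Agent.Lib.Helper33.GenLocal
open Cfsg.Agent.Lib.Helper33.FocalLocal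
open Cfsg.Agent.Lib.Helper33.Sections
open Cfsg.Agent.Lib.Helper33.PCore
open Cfsg.Agent.Lib.Helper33.SecBase
open Cfsg.Agent.Lib.Helper33.SecTransfer
open Cfsg.Agent.Lib.Helper33.Engel
open Cfsg.Agent.Lib.Helper33.SecEngel
open scoped commutatorElement

universe u

variable {p : ℕ} [Fact p.Prime] {𝓦 : Set (∀ (Q : Type u) [Group Q], Subgroup Q)}

/-- `tf_step` with a prescribed Sylow subgroup. -/
theorem tf_step_at (h𝓦 : ∀ W ∈ 𝓦, IsCharPFunctor.{u} p W) {X : Type u} [Group X] [Finite X]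
    (ihsub : ∀ N : Subgroup X, N ≠ ⊤ → TF p 𝓦 ↥N)
    (ihquot : ∀ (N : Subgroup X) [N.Normal], N ≠ ⊥ → TF p 𝓦 (X ⧸ N))
    (S : Sylow p X)
    (hc : Subgroup.centralizer ((pCore p X : Subgroup X) : Set X) ≤ pCore p X →
      pCore p X ⊓ ⁅(⊤ : Subgroup X), (⊤ : Subgroup X)⁆ ≤ FF 𝓦 ⊤ (S : Subgroup X)) :
    TF p 𝓦 X := by
  have hp : p.Prime := Fact.out
  have h𝓦X := ind_isConjugacyFunctor h𝓦 X
  have hS : IsSylIn p (S : Subgroup X) ⊤ := isSylIn_of_sylow S le_top
  have sub_le : ∀ N : Subgroup X, N ≠ ⊤ → (S : Subgroup X) ≤ N →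
      (S : Subgroup X) ⊓ ⁅N, N⁆ ≤ FF 𝓦 ⊤ (S : Subgroup X) := by
    intro N hN hSN
    have h1 := tf_subtype h𝓦 N (ihsub N hN)
    rw [tf_iff_le h𝓦 (isSylIn_of_sylow S hSN)] at h1
    exact h1.trans (FF_mono le_top _)
  have hPn : (pCore p X).Normal := Cfsg.Agent.Lib.Helper33.PCore.pCore_normal p
  have hPS : pCore p X ≤ (S : Subgroup X) := pCore_le_sylow S
  by_cases hP : pCore p X = ⊥
  · unfold TF
    apply familyControlsTransfer_top S h𝓦X
    intro T hT hTne hTfn
    apply tf_subtype h𝓦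
    apply ihsub
    intro htop
    have hTn : T.Normal := Subgroup.normalizer_eq_top_iff.mp htop
    have h1 : T ≤ pCore p X := le_pCore (S.2.to_le hT)
    rw [hP] at h1
    exact hTne (le_bot_iff.mp h1)
  by_cases hK : pPrimeCore p X = ⊥
  swap
  · have hKn := pPrimeCore_normal (G := X) p
    exact tf_of_quotient_coprime h𝓦 (pPrimeCore p X) (pPrimeCore_card_coprime p) (ihquot _ hK)
  unfold TF
  rw [tf_iff_le h𝓦 hS]
  have hπ : Function.Surjective (QuotientGroup.mk' (pCore p X)) :=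
    QuotientGroup.mk'_surjective _
  have hstar : (S : Subgroup X) ⊓ ⁅(⊤ : Subgroup X), (⊤ : Subgroup X)⁆ ≤
      FF 𝓦 ⊤ (S : Subgroup X) ⊔ (pCore p X ⊓ ⁅(⊤ : Subgroup X), (⊤ : Subgroup X)⁆) := by
    by_cases hSP : (S : Subgroup X) = pCore p X
    · rw [← hSP]
      exact le_sup_right
    have hSbne : (S : Subgroup X).map (QuotientGroup.mk' (pCore p X)) ≠ ⊥ := by
      intro hb
      apply hSP
      apply le_antisymm _ hPS
      intro s hs
      have h1 : QuotientGroup.mk' (pCore p X) s ∈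
          (S : Subgroup X).map (QuotientGroup.mk' (pCore p X)) := ⟨s, hs, rfl⟩
      rw [hb, Subgroup.mem_bot] at h1
      exact (QuotientGroup.eq_one_iff s).mp h1
    have hcomapS : ((S : Subgroup X).map (QuotientGroup.mk' (pCore p X))).comap
        (QuotientGroup.mk' (pCore p X)) = (S : Subgroup X) := by
      rw [Subgroup.comap_map_eq, QuotientGroup.ker_mk', sup_eq_left.mpr hPS]
    apply inf_commutator_le_sup_of_quotient h𝓦 S (pCore p X) hPS (ihquot _ hP)
    intro W hW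
    have hcf := isConjugacyFunctor_induced (h𝓦 W hW) (X ⧸ pCore p X)
    have hSbp : IsPGroup p ↥((S : Subgroup X).map (QuotientGroup.mk' (pCore p X))) :=
      S.2.map _
    have hWle := (hcf _ hSbp).1
    have hWne := (hcf _ hSbp).2.1 hSbne
    have hSbN := le_trans Subgroup.le_normalizer (normalizer_le_normalizer_W hcf hSbp)
    generalize inducedFunctor (G := X ⧸ pCore p X) W
      ((S : Subgroup X).map (QuotientGroup.mk' (pCore p X))) = Lb at *
    have hLS : Lb.comap (QuotientGroup.mk' (pCore p X)) ≤ (S : Subgroup X) := by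
      rw [← hcomapS]
      exact Subgroup.comap_mono hWle
    apply sub_le
    · intro htop
      have hLn : (Lb.comap (QuotientGroup.mk' (pCore p X))).Normal :=
        Subgroup.normalizer_eq_top_iff.mp htop
      have hLP : Lb.comap (QuotientGroup.mk' (pCore p X)) ≤ pCore p X :=
        le_pCore (S.2.to_le hLS)
      apply hWne
      rw [eq_bot_iff]
      intro xb hxb
      obtain ⟨x, rfl⟩ := hπ xb
      have h2 : x ∈ pCore p X := hLP hxb
      exact Subgroup.mem_bot.mpr ((QuotientGroup.eq_one_iff x).mpr h2)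
    · rw [← Subgroup.comap_normalizer_eq_of_surjective _ hπ]
      intro s hs
      exact hSbN ⟨s, hs, rfl⟩
  by_cases hC : Subgroup.centralizer ((pCore p X : Subgroup X) : Set X) ≤ pCore p X
  · exact hstar.trans (sup_le le_rfl (hc hC))
  have hSC : ¬ ((S : Subgroup X) ⊓ Subgroup.centralizer ((pCore p X : Subgroup X) : Set X) ≤
      pCore p X) := fun h => hC (centralizer_pCore_le_of_inf_le S hK h)
  have hCn : (Subgroup.centralizer ((pCore p X : Subgroup X) : Set X)).Normal := inferInstance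
  by_cases hSCtop : (S : Subgroup X) ⊔
      Subgroup.centralizer ((pCore p X : Subgroup X) : Set X) = ⊤
  swap
  · have hgood := good_of_normal S (tgood_goodRel (FF 𝓦 ⊤ (S : Subgroup X)) (S : Subgroup X))
      (pCore p X ⊔ Subgroup.centralizer ((pCore p X : Subgroup X) : Set X)) ?_ ?_
    · refine le_trans (focal_rel hS) ?_
      rw [Subgroup.closure_le]
      rintro _ ⟨a, ha, h, -, hha, rfl⟩
      exact hgood {a} h (Set.singleton_subset_iff.mpr ha)
        (by rw [Set.image_singleton]; exact Set.singleton_subset_iff.mpr hha) a rfl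
    · intro y hy B hB hyB b hb
      apply sub_le _ hSCtop le_sup_left
      exact ⟨Subgroup.mul_mem _ (hyB ⟨b, hb, rfl⟩) (Subgroup.inv_mem _ (hB hb)),
        conj_comm_mem (sup_le (hPS.trans le_sup_left) le_sup_right hy) (le_sup_left (a := (S : Subgroup X)) (hB hb))⟩
    · intro y hy B hB hyB b hb
      have hSN : (S : Subgroup X) ≤ Subgroup.normalizer (((S : Subgroup X) ⊓ (pCore p X ⊔
          Subgroup.centralizer ((pCore p X : Subgroup X) : Set X)) : Subgroup X) : Set X) := by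
        intro s hs
        exact normalizer_inf_le _ _ ⟨Subgroup.le_normalizer hs,
          by rw [Subgroup.normalizer_eq_top]; trivial⟩
      refine sub_le _ ?_ hSN ?_
      · intro htop
        have hn : ((S : Subgroup X) ⊓ (pCore p X ⊔
            Subgroup.centralizer ((pCore p X : Subgroup X) : Set X))).Normal :=
          Subgroup.normalizer_eq_top_iff.mp htop
        have h1 : (S : Subgroup X) ⊓ (pCore p X ⊔
            Subgroup.centralizer ((pCore p X : Subgroup X) : Set X)) ≤ pCore p X :=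
          le_pCore (S.2.to_inf_left)
        exact hSC (le_trans (inf_le_inf_left _ le_sup_right) h1)
      · exact ⟨Subgroup.mul_mem _ (hyB ⟨b, hb, rfl⟩) (Subgroup.inv_mem _ (hB hb)),
          conj_comm_mem hy (hSN (hB hb))⟩
  · have hSP : (S : Subgroup X) ≠ pCore p X := by
      intro h0
      apply hSC
      rw [← h0]
      exact inf_le_left
    have hStop : (S : Subgroup X) ≠ ⊤ := by
      intro h0
      apply hSP
      rw [h0]
      symm
      rw [eq_top_iff]
      exact le_pCore (by rw [← h0]; exact S.2)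
    have h1 : ⁅(S : Subgroup X), (S : Subgroup X)⁆ ≤ FF 𝓦 ⊤ (S : Subgroup X) :=
      le_trans (le_inf (commutator_self_le _) le_rfl) (sub_le (S : Subgroup X) hStop le_rfl)
    exact hstar.trans (sup_le le_rfl
      ((inf_commutator_le_of_sup_centralizer S (pCore p X) hPS hSCtop).trans h1))

/-- Transfer control in all sections of smaller order, from the hypothesis on the concrete
sections `K ⧸ R` other than `G` itself. -/
theorem tf_of_sec_lt (h𝓦 : ∀ W ∈ 𝓦, IsCharPFunctor.{u} p W) {G : Type u} [Group G] [Finite G]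
    (hsec : ∀ (K R : Subgroup G) [(R.subgroupOf K).Normal], (K = ⊤ → R ≠ ⊥) →
      TF p 𝓦 (↥K ⧸ R.subgroupOf K))
    {Y : Type u} [Group Y] [Finite Y] (hY : IsSec G Y) (hcard : Nat.card Y < Nat.card G) :
    TF p 𝓦 Y := by
  obtain ⟨K, R, hR, ⟨e⟩⟩ := hY.exists_equiv
  have hfin : Finite (↥K ⧸ R.subgroupOf K) := Finite.of_injective e e.injective
  refine tf_equiv h𝓦 e (hsec K R ?_)
  intro hK hRbot
  subst hK
  subst hRbot
  have hs : Nat.card ↥((⊥ : Subgroup G).subgroupOf ⊤) = 1 := by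
    rw [Subgroup.bot_subgroupOf]
    exact Subgroup.card_bot
  have h2 := Subgroup.card_eq_card_quotient_mul_card_subgroup ((⊥ : Subgroup G).subgroupOf ⊤)
  rw [hs, mul_one, Subgroup.card_top, Nat.card_congr e.toEquiv] at h2
  omega

/-- If all conjugates of `x ∈ P` have the same image under `ϕ` and the transfer of `x` is
trivial, then `ϕ x = 1`. -/
theorem transfer_inv_eq_one {G : Type*} [Group G] [Finite G] {A : Type*} [CommGroup A]
    (S : Sylow p G) (ϕ : ↥(S : Subgroup G) →* A) (P : Subgroup G) [P.Normal]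
    (hPS : P ≤ (S : Subgroup G)) {x : G} (hx : x ∈ P)
    (hinv : ∀ t : G, ext1 ϕ (t⁻¹ * x * t) = ext1 ϕ x) (hτ : MonoidHom.transfer ϕ x = 1) :
    ext1 ϕ x = 1 := by
  have hp : p.Prime := Fact.out
  have h0 := transfer_eq_prod_cfun ϕ P hPS hx
  rw [hτ] at h0
  have hval : ∀ q : G ⧸ (S : Subgroup G), cfun ϕ x q = ext1 ϕ x := by
    intro q
    induction q using QuotientGroup.induction_on with
    | H t =>
      rw [cfun_mk ϕ x t (hPS (conj_mem_of_normal hx t))]
      exact hinv t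
  rw [Finset.prod_congr rfl (fun q _ => hval q), Finset.prod_const,
    @Finset.card_univ _ (S : Subgroup G).fintypeQuotientOfFiniteIndex,
    ← @Nat.card_eq_fintype_card _ (S : Subgroup G).fintypeQuotientOfFiniteIndex] at h0
  obtain ⟨k, hk⟩ := S.2 ⟨x, hPS hx⟩
  have h1 : ext1 ϕ x ^ (p ^ k) = 1 := by
    rw [← ext1_pow ϕ (hPS hx)]
    have h2 : x ^ p ^ k = 1 := congrArg Subtype.val hk
    rw [h2, ext1_one]
  have hcop : Nat.Coprime (p ^ k) (Nat.card (G ⧸ (S : Subgroup G))) :=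
    Nat.Coprime.pow_left k ((Nat.Prime.coprime_iff_not_dvd hp).mpr S.not_dvd_index)
  exact orderOf_eq_one_iff.mp (Nat.eq_one_of_dvd_coprimes hcop
    (orderOf_dvd_of_pow_eq_one h1) (orderOf_dvd_of_pow_eq_one h0.symm))

/-- The structure of a minimal failure of transfer control by a nonempty set of functors. -/
theorem min_structure (h𝓦 : ∀ W ∈ 𝓦, IsCharPFunctor.{u} p W) (hne : 𝓦.Nonempty) {G : Type u}
    [Group G] [Finite G] (S : Sylow p G)
    (ihsub : ∀ N : Subgroup G, N ≠ ⊤ → TF p 𝓦 ↥N)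
    (ihquot : ∀ (N : Subgroup G) [N.Normal], N ≠ ⊥ → TF p 𝓦 (G ⧸ N))
    (hG : ¬ TF p 𝓦 G) (T M : Subgroup G) (hT : T = FF 𝓦 ⊤ (S : Subgroup G))
    (hM : M = Subgroup.normalizer ((T ⊓ pCore p G : Subgroup G) : Set G)) :
    Subgroup.centralizer ((pCore p G : Subgroup G) : Set G) ≤ pCore p G ∧
    (M ≠ ⊤ ∧ ∀ H : Subgroup G, (S : Subgroup G) ≤ H → H ≠ ⊤ → H ≤ M) ∧
    (⁅pCore p G, M⁆ ≤ pCore p G ⊓ ⁅M, M⁆ ∧ pCore p G ⊓ ⁅M, M⁆ ≤ pCore p G ⊓ T) ∧
    ∀ u : G, u ∈ (S : Subgroup G) → u ∉ pCore p G → ∃ U V : Subgroup G,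
      IsChiefFactor U V ∧ U ≤ pCore p G ∧
        ¬ iterCommutator U (Subgroup.zpowers u) (p - 1) ≤ V := by
  subst hT
  subst hM
  have hPn : (pCore p G).Normal := Cfsg.Agent.Lib.Helper33.PCore.pCore_normal p
  have hPS : pCore p G ≤ (S : Subgroup G) := pCore_le_sylow S
  have hTF := commutator_le_FF h𝓦 hne S
  have hFS : FF 𝓦 ⊤ (S : Subgroup G) ≤ (S : Subgroup G) := (FF_le _ _).trans inf_le_left
  have hker : ∀ {x : G}, x ∈ (S : Subgroup G) →
      (ext1 (qf (S : Subgroup G) (FF 𝓦 ⊤ (S : Subgroup G))) x = 1 ↔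
        x ∈ FF 𝓦 ⊤ (S : Subgroup G)) :=
    fun hx => ext1_qf_eq_one_iff hTF hx
  have hstarP : ¬ (pCore p G ⊓ ⁅(⊤ : Subgroup G), (⊤ : Subgroup G)⁆ ≤
      FF 𝓦 ⊤ (S : Subgroup G)) :=
    fun h => hG (tf_step_at h𝓦 ihsub ihquot S (fun _ => h))
  have hC : Subgroup.centralizer ((pCore p G : Subgroup G) : Set G) ≤ pCore p G := by
    by_contra hC
    exact hG (tf_step_at h𝓦 ihsub ihquot S (fun h => absurd h hC))
  have sub_le : ∀ H : Subgroup G, (S : Subgroup G) ≤ H → H ≠ ⊤ →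
      (S : Subgroup G) ⊓ ⁅H, H⁆ ≤ FF 𝓦 ⊤ (S : Subgroup G) :=
    fun H hSH hH => sub_le_of_tf h𝓦 S hSH (ihsub H hH)
  have hcomm : ∀ H : Subgroup G, (S : Subgroup G) ≤ H → H ≠ ⊤ → ∀ h ∈ H, ∀ x ∈ pCore p G,
      h * x * h⁻¹ * x⁻¹ ∈ FF 𝓦 ⊤ (S : Subgroup G) ⊓ pCore p G := by
    intro H hSH hH h hh x hx
    have hcx : h * x * h⁻¹ ∈ pCore p G := hPn.conj_mem x hx h
    exact ⟨sub_le H hSH hH ⟨Subgroup.mul_mem _ (hPS hcx) (Subgroup.inv_mem _ (hPS hx)),
      conj_comm_mem hh (hSH (hPS hx))⟩, Subgroup.mul_mem _ hcx (Subgroup.inv_mem _ hx)⟩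
  have hcommS : ∀ s ∈ (S : Subgroup G), ∀ x ∈ pCore p G,
      s * x * s⁻¹ * x⁻¹ ∈ FF 𝓦 ⊤ (S : Subgroup G) ⊓ pCore p G := by
    intro s hs x hx
    have hcx : s * x * s⁻¹ ∈ pCore p G := hPn.conj_mem x hx s
    exact ⟨hTF (conj_comm_mem hs (hPS hx)), Subgroup.mul_mem _ hcx (Subgroup.inv_mem _ hx)⟩
  have hnorm_of : ∀ h : G, (∀ x ∈ pCore p G,
      h * x * h⁻¹ * x⁻¹ ∈ FF 𝓦 ⊤ (S : Subgroup G) ⊓ pCore p G) →
      h ∈ Subgroup.normalizer ((FF 𝓦 ⊤ (S : Subgroup G) ⊓ pCore p G : Subgroup G) : Set G) := by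
    intro h hh
    apply mem_normalizer_of_forall_conj_mem
    intro x hx
    have h1 := hh x hx.2
    have e : h * x * h⁻¹ = (h * x * h⁻¹ * x⁻¹) * x := by group
    rw [e]
    exact Subgroup.mul_mem _ h1 hx
  have hSM : (S : Subgroup G) ≤
      Subgroup.normalizer ((FF 𝓦 ⊤ (S : Subgroup G) ⊓ pCore p G : Subgroup G) : Set G) :=
    fun s hs => hnorm_of s (hcommS s hs)
  have hHM : ∀ H : Subgroup G, (S : Subgroup G) ≤ H → H ≠ ⊤ → H ≤
      Subgroup.normalizer ((FF 𝓦 ⊤ (S : Subgroup G) ⊓ pCore p G : Subgroup G) : Set G) :=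
    fun H hSH hH h hh => hnorm_of h (hcomm H hSH hH h hh)
  have hMtop : Subgroup.normalizer
      ((FF 𝓦 ⊤ (S : Subgroup G) ⊓ pCore p G : Subgroup G) : Set G) ≠ ⊤ := by
    intro htop
    have hDn : (FF 𝓦 ⊤ (S : Subgroup G) ⊓ pCore p G).Normal :=
      Subgroup.normalizer_eq_top_iff.mp htop
    apply hstarP
    by_cases hSn : Subgroup.normalizer (((S : Subgroup G) : Subgroup G) : Set G) = ⊤
    · obtain ⟨W, hW⟩ := hne
      have hcf := isConjugacyFunctor_induced (h𝓦 W hW) G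
      have hN : Subgroup.normalizer
          ((inducedFunctor (G := G) W (S : Subgroup G) : Subgroup G) : Set G) = ⊤ := by
        rw [eq_top_iff, ← hSn]
        exact normalizer_le_normalizer_W hcf S.2
      have hle : (S : Subgroup G) ⊓ ⁅(⊤ : Subgroup G) ⊓ Subgroup.normalizer
            ((inducedFunctor (G := G) W (S : Subgroup G) : Subgroup G) : Set G),
          (⊤ : Subgroup G) ⊓ Subgroup.normalizer
            ((inducedFunctor (G := G) W (S : Subgroup G) : Subgroup G) : Set G)⁆ ≤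
          FF 𝓦 ⊤ (S : Subgroup G) :=
        le_iSup₂ (f := fun W' (_ : W' ∈ ind 𝓦 G) => (S : Subgroup G) ⊓
          ⁅(⊤ : Subgroup G) ⊓ Subgroup.normalizer ((W' (S : Subgroup G) : Subgroup G) : Set G),
            (⊤ : Subgroup G) ⊓
              Subgroup.normalizer ((W' (S : Subgroup G) : Subgroup G) : Set G)⁆)
          (inducedFunctor (G := G) W) ⟨W, hW, rfl⟩
      rw [hN, top_inf_eq] at hle
      exact le_trans (inf_le_inf_right _ hPS) hle
    · let C : Subgroup G :=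
        { carrier := {t | ∀ x ∈ pCore p G,
            t * x * t⁻¹ * x⁻¹ ∈ FF 𝓦 ⊤ (S : Subgroup G) ⊓ pCore p G}
          mul_mem' := by
            intro t₁ t₂ h₁ h₂ x hx
            have e : t₁ * t₂ * x * (t₁ * t₂)⁻¹ * x⁻¹ =
                (t₁ * (t₂ * x * t₂⁻¹ * x⁻¹) * t₁⁻¹) * (t₁ * x * t₁⁻¹ * x⁻¹) := by group
            rw [e]
            exact Subgroup.mul_mem _ (hDn.conj_mem _ (h₂ x hx) t₁) (h₁ x hx)
          one_mem' := by
            intro x hx
            have e : (1 : G) * x * 1⁻¹ * x⁻¹ = 1 := by group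
            rw [e]
            exact Subgroup.one_mem _
          inv_mem' := by
            intro t ht x hx
            have h1 := ht (t⁻¹ * x * t) (conj_mem_of_normal hx t)
            have e : t⁻¹ * x * t⁻¹⁻¹ * x⁻¹ =
                (t * (t⁻¹ * x * t) * t⁻¹ * (t⁻¹ * x * t)⁻¹)⁻¹ := by group
            rw [e]
            exact Subgroup.inv_mem _ h1 }
      have hCn : C.Normal := ⟨fun t ht g x hx => by
        have h1 := ht (g⁻¹ * x * g) (conj_mem_of_normal hx g)
        have e : g * t * g⁻¹ * x * (g * t * g⁻¹)⁻¹ * x⁻¹ =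
            g * (t * (g⁻¹ * x * g) * t⁻¹ * (g⁻¹ * x * g)⁻¹) * g⁻¹ := by group
        rw [e]
        exact hDn.conj_mem _ h1 g⟩
      have hSC : (S : Subgroup G) ≤ C := fun s hs => hcommS s hs
      have hNC : Subgroup.normalizer (((S : Subgroup G) : Subgroup G) : Set G) ≤ C :=
        fun n hn => hcomm _ Subgroup.le_normalizer hSn n hn
      have hall : ∀ t : G, t ∈ C := by
        intro t
        obtain ⟨k, hk, hkt⟩ := frattini_rel (isSylIn_of_sylow S hSC) (x := t)
          (by rw [Subgroup.normalizer_eq_top]; trivial)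
        have e : t = k⁻¹ * (k * t) := by group
        rw [e]
        exact C.mul_mem (C.inv_mem hk) (hNC hkt)
      rintro x ⟨hxP, hxG⟩
      have hτ : MonoidHom.transfer (qf (S : Subgroup G) (FF 𝓦 ⊤ (S : Subgroup G))) x = 1 := by
        have h1 : x ∈ (MonoidHom.transfer
            (qf (S : Subgroup G) (FF 𝓦 ⊤ (S : Subgroup G)))).ker :=
          Abelianization.commutator_subset_ker _ (by rw [commutator_def]; exact hxG)
        exact h1
      have hinv : ∀ t : G, ext1 (qf (S : Subgroup G) (FF 𝓦 ⊤ (S : Subgroup G))) (t⁻¹ * x * t) =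
          ext1 (qf (S : Subgroup G) (FF 𝓦 ⊤ (S : Subgroup G))) x := by
        intro t
        have h1 := hall t⁻¹ x hxP
        rw [inv_inv] at h1
        have e : t⁻¹ * x * t = (t⁻¹ * x * t * x⁻¹) * x := by group
        rw [e, ext1_mul _ (hFS h1.1) (hPS hxP), (hker (hFS h1.1)).mpr h1.1, one_mul]
      exact (hker (hPS hxP)).mp (transfer_inv_eq_one S _ (pCore p G) hPS hxP hinv hτ)
  refine ⟨hC, ⟨hMtop, hHM⟩, ⟨?_, ?_⟩, ?_⟩
  · exact le_inf (Subgroup.commutator_le_left _ _)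
      (Subgroup.commutator_mono (hPS.trans hSM) le_rfl)
  · exact le_inf inf_le_left
      (le_trans (inf_le_inf_right _ hPS) (sub_le _ hSM hMtop))
  · intro u huS hu
    by_contra hcon
    push Not at hcon
    exact hstarP (pt_of_engel h𝓦 hne ihsub S u huS hu
      (fun U V hUV hUP => hcon U V hUV hUP))

end Cfsg.Agent.Lib.Helper33.SecMin
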