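import Mathlib
import Cfsg.Agent.Lib.Helper41.SpFStmt

/-!
# S5975 / IDXARITH (second seat, helper33)
-/

namespace Cfsg.Agent.Lib.Helper33.SpFIDXARITH

open Finset

theorem not_dvd_factor (q k r j : ℕ) (hq : 1 ≤ q)
    (hk : k ∣ orderOf ((q : ZMod r) ^ 2)) (hj : ¬ k ∣ j + 1) : ¬ r ∣ q ^ (2 * (j + 1)) - 1 := by
  intro h
  apply hj
  refine hk.trans (orderOf_dvd_of_pow_eq_one ?_)
  have h1 : ((q ^ (2 * (j + 1)) - 1 : ℕ) : ZMod r) = 0 := (ZMod.natCast_eq_zero_iff _ _).2 h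
  rw [Nat.cast_sub (Nat.one_le_pow _ _ hq)] at h1
  rw [← pow_mul]
  push_cast at h1
  exact sub_eq_zero.1 h1

theorem main : Cfsg.Agent.Lib.Helper41.SpFStmt.IdxArith := by
  intro q d k m' r hq hr hrq hk hd hord N hBN hNA
  subst hd
  set F : ℕ → ℕ := fun j => q ^ (2 * (j + 1)) - 1 with hF
  set S : Finset ℕ := (range m').image (fun j' => k * (j' + 1) - 1) with hS
  have hSsub : S ⊆ range (k * m') := by
    intro j hj
    rw [hS, mem_image] at hj
    obtain ⟨j', hj', rfl⟩ := hj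
    rw [mem_range] at hj' ⊢
    have h1 : k * (j' + 1) ≤ k * m' := Nat.mul_le_mul_left k hj'
    have h2 : 1 ≤ k * (j' + 1) := Nat.mul_pos hk (Nat.succ_pos _)
    omega
  have hinj : Set.InjOn (fun j' => k * (j' + 1) - 1) (range m' : Set ℕ) := by
    intro a _ b _ hab
    simp only at hab
    have h1 : 1 ≤ k * (a + 1) := Nat.mul_pos hk (Nat.succ_pos _)
    have h2 : 1 ≤ k * (b + 1) := Nat.mul_pos hk (Nat.succ_pos _)
    have h3 : k * (a + 1) = k * (b + 1) := by omega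
    have := Nat.eq_of_mul_eq_mul_left hk h3
    omega
  have hprodS : ∏ j ∈ S, F j = ∏ j' ∈ range m', ((q ^ k) ^ (2 * (j' + 1)) - 1) := by
    rw [hS, prod_image hinj]
    refine prod_congr rfl fun j' _ => ?_
    have h1 : 1 ≤ k * (j' + 1) := Nat.mul_pos hk (Nat.succ_pos _)
    simp only [hF]
    rw [Nat.sub_add_cancel h1, ← pow_mul]
    congr 2
    ring
  have hsplit : (∏ j ∈ range (k * m') \ S, F j) * ∏ j ∈ S, F j = ∏ j ∈ range (k * m'), F j :=
    prod_sdiff hSsub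
  have hrest : ¬ r ∣ ∏ j ∈ range (k * m') \ S, F j := by
    rw [Prime.dvd_finsetProd_iff hr.prime]
    rintro ⟨j, hj, hdvd⟩
    rw [mem_sdiff, mem_range] at hj
    refine not_dvd_factor q k r j (by omega) hord ?_ hdvd
    rintro ⟨c, hc⟩
    apply hj.2
    rw [hS, mem_image]
    have hc1 : 1 ≤ c := by
      rcases Nat.eq_zero_or_pos c with h | h
      · subst h; simp at hc
      · exact h
    have hcm : c ≤ m' := by
      by_contra hcon
      rw [not_le] at hcon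
      have h3 : k * (m' + 1) ≤ k * c := Nat.mul_le_mul_left k hcon
      have h4 : k * (m' + 1) = k * m' + k := by ring
      omega
    refine ⟨c - 1, ?_, ?_⟩
    · rw [mem_range]; omega
    · rw [Nat.sub_add_cancel hc1, ← hc]; omega
  -- the power of q
  have hpow : q ^ ((k * m') ^ 2) = (q ^ k) ^ (m' ^ 2) * q ^ ((k * m') ^ 2 - k * m' ^ 2) := by
    rw [← pow_mul, ← pow_add]
    congr 1
    have : k * m' ^ 2 ≤ (k * m') ^ 2 := by
      have : (k * m') ^ 2 = k * (k * m' ^ 2) := by ring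
      rw [this]
      exact Nat.le_mul_of_pos_left _ hk
    omega
  set B : ℕ := (q ^ k) ^ (m' ^ 2) * ∏ j ∈ range m', ((q ^ k) ^ (2 * (j + 1)) - 1) with hB
  set C : ℕ := q ^ ((k * m') ^ 2 - k * m' ^ 2) * ∏ j ∈ range (k * m') \ S, F j with hC
  have hA : q ^ ((k * m') ^ 2) * ∏ j ∈ range (k * m'), (q ^ (2 * (j + 1)) - 1) = B * C := by
    have : ∏ j ∈ range (k * m'), (q ^ (2 * (j + 1)) - 1) = ∏ j ∈ range (k * m'), F j := rfl
    rw [this, ← hsplit, hprodS, hpow, hB, hC]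
    ring
  have hCr : ¬ r ∣ C := by
    rw [hC, hr.dvd_mul]
    rintro (h | h)
    · exact hrq (hr.dvd_of_dvd_pow h)
    · exact hrest h
  have hC0 : C ≠ 0 := by
    intro h; rw [h] at hCr; exact hCr (dvd_zero r)
  have hB0 : B ≠ 0 := by
    rw [hB]
    refine mul_ne_zero (pow_ne_zero _ (pow_ne_zero _ (by omega))) ?_
    rw [prod_ne_zero_iff]
    intro j _
    have h1 : 1 < q ^ k := Nat.one_lt_pow (by omega) (by omega)
    have h2 : 1 < (q ^ k) ^ (2 * (j + 1)) := Nat.one_lt_pow (by omega) h1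
    omega
  rw [hA] at hNA ⊢
  obtain ⟨c, rfl⟩ := hBN
  obtain ⟨t, ht⟩ := hNA
  have hc0 : c ≠ 0 := by
    rintro rfl
    rw [mul_zero, zero_mul] at ht
    exact mul_ne_zero hB0 hC0 ht
  have hN0 : 0 < B * c := Nat.pos_of_ne_zero (mul_ne_zero hB0 hc0)
  rw [ht, Nat.mul_div_cancel_left _ hN0]
  intro hrt
  apply hCr
  have : C = c * t := by
    have h5 : B * C = B * (c * t) := by rw [ht]; ring
    exact Nat.eq_of_mul_eq_mul_left (Nat.pos_of_ne_zero hB0) h5
  rw [this]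
  exact Dvd.dvd.mul_left hrt c

end Cfsg.Agent.Lib.Helper33.SpFIDXARITH
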