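import Mathlib
import Cfsg.Agent.Lib.Helper44.TPStmt

set_option autoImplicit false

/-!
Piece INVGOOD1 of S5973: an involution of `Omega+` fixes a totally singular `m`-space when
`q ≡ 1 (mod 4)` or `m + 2 ≤ d`.
-/

universe u

open scoped Matrix

namespace Cfsg.Agent.Lib.Helper33.TPINVGOOD1

open Cfsg.Agent.Lib.Helper44.TPStmt

/-- subspaces of every smaller finrank -/
theorem exists_sub_finrank {F V : Type*} [Field F] [AddCommGroup V] [Module F V]
    [FiniteDimensional F V] (U : Submodule F V) (j : ℕ) (hj : j ≤ Module.finrank F ↥U) :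
    ∃ U' : Submodule F V, U' ≤ U ∧ Module.finrank F ↥U' = j := by
  classical
  have hli : LinearIndependent F
      (fun i : Fin j => ((Module.finBasis F ↥U (Fin.castLE hj i) : ↥U) : V)) := by
    have h1 : LinearIndependent F (fun i : Fin j => Module.finBasis F ↥U (Fin.castLE hj i)) :=
      (Module.finBasis F ↥U).linearIndependent.comp _ (Fin.castLE_injective hj)
    exact h1.map' U.subtype (Submodule.ker_subtype U)
  refine ⟨Submodule.span F
    (Set.range (fun i : Fin j => ((Module.finBasis F ↥U (Fin.castLE hj i) : ↥U) : V))), ?_, ?_⟩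
  · rw [Submodule.span_le]
    rintro _ ⟨i, rfl⟩
    exact (Module.finBasis F ↥U (Fin.castLE hj i)).2
  · rw [finrank_span_eq_card hli, Fintype.card_fin]

theorem main (hTop : Top.{u}) (hDec : InvDec.{u}) (hPar : InvPar.{u}) (hSpin : SpinInv.{u})
    (hTsIn : TsIn.{u}) (hCancel : Cancel.{u}) : InvGood1.{u} := by
  intro F _ _ hodd d m hd hmd hcase x hx hx2
  have hxiso : x ∈ Cfsg.isometryGroup F (Cfsg.quadFormPlus d F) := by
    obtain ⟨y, -, rfl⟩ := hx
    exact y.2
  obtain ⟨hFxND, hFmND, horth, hinf, hdim, hsup⟩ := hDec F hodd d x hxiso hx2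
  obtain ⟨e, he⟩ := hPar F hodd d x hx hx2
  have hbot : TSub d F (⊥ : Submodule F (J d → F)) := by
    intro w hw
    rw [(Submodule.mem_bot F).mp hw]
    simp [Cfsg.quadFormPlus]
  -- the two pieces
  have key : ∃ U₁ U₂ : Submodule F (J d → F), U₁ ≤ Fx (x : Matrix (J d) (J d) F) ∧
      U₂ ≤ Fm (x : Matrix (J d) (J d) F) ∧ TSub d F U₁ ∧ TSub d F U₂ ∧
      Module.finrank F ↥U₁ + Module.finrank F ↥U₂ = m := by
    rcases hcase with hq | hm2
    · -- plus type on both eigenspaces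
      obtain ⟨Um, hUm, htsm, hdm⟩ := hSpin F hodd hq d hd x hx hx2
      have hplus : Plus d F (Fm (x : Matrix (J d) (J d) F) ⊔ Fx (x : Matrix (J d) (J d) F)) := by
        rw [sup_comm, hsup]
        exact (hTop F d).2
      obtain ⟨Ux, hUx, htsx, hdx⟩ := hCancel F d _ _ hFmND hFxND
        (fun u hu v hv => by rw [QuadraticMap.polar_comm]; exact horth v hv u hu) hplus
        ⟨Um, hUm, htsm, hdm⟩
      by_cases h1 : m ≤ Module.finrank F ↥Ux
      · obtain ⟨U₁, hU₁, hd₁⟩ := exists_sub_finrank Ux m h1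
        refine ⟨U₁, ⊥, hU₁.trans hUx, bot_le, fun w hw => htsx w (hU₁ hw), hbot, ?_⟩
        rw [hd₁, finrank_bot, add_zero]
      · have h2 : m - Module.finrank F ↥Ux ≤ Module.finrank F ↥Um := by omega
        obtain ⟨U₂, hU₂, hd₂⟩ := exists_sub_finrank Um _ h2
        refine ⟨Ux, U₂, hUx, hU₂.trans hUm, htsx, fun w hw => htsm w (hU₂ hw), ?_⟩
        rw [hd₂]
        omega
    · by_cases h1 : 2 * m < Module.finrank F ↥(Fx (x : Matrix (J d) (J d) F))
      · obtain ⟨U₁, hU₁, hts₁, hd₁⟩ := hTsIn F d _ m hFxND h1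
        refine ⟨U₁, ⊥, hU₁, bot_le, hts₁, hbot, ?_⟩
        rw [hd₁, finrank_bot, add_zero]
      · by_cases h0 : Module.finrank F ↥(Fx (x : Matrix (J d) (J d) F)) = 0
        · have h3 : 2 * m < Module.finrank F ↥(Fm (x : Matrix (J d) (J d) F)) := by omega
          obtain ⟨U₂, hU₂, hts₂, hd₂⟩ := hTsIn F d _ m hFmND h3
          refine ⟨⊥, U₂, bot_le, hU₂, hbot, hts₂, ?_⟩
          rw [hd₂, finrank_bot, zero_add]
        · have h2 : 2 * (d - e - 1) < Module.finrank F ↥(Fx (x : Matrix (J d) (J d) F)) := by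
            omega
          have h3 : 2 * (m - (d - e - 1)) <
              Module.finrank F ↥(Fm (x : Matrix (J d) (J d) F)) := by
            omega
          obtain ⟨U₁, hU₁, hts₁, hd₁⟩ := hTsIn F d _ (d - e - 1) hFxND h2
          obtain ⟨U₂, hU₂, hts₂, hd₂⟩ := hTsIn F d _ (m - (d - e - 1)) hFmND h3
          refine ⟨U₁, U₂, hU₁, hU₂, hts₁, hts₂, ?_⟩
          rw [hd₁, hd₂]
          omega
  obtain ⟨U₁, U₂, hU₁, hU₂, hts₁, hts₂, hsum⟩ := key
  refine ⟨U₁ ⊔ U₂, ?_, ?_, ?_⟩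
  · -- dimension
    have h1 := Submodule.finrank_sup_add_finrank_inf_eq U₁ U₂
    have h2 : U₁ ⊓ U₂ = ⊥ := by
      rw [eq_bot_iff, ← hinf]
      exact inf_le_inf hU₁ hU₂
    rw [h2, finrank_bot, add_zero] at h1
    rw [h1, hsum]
  · -- totally singular
    intro w hw
    obtain ⟨u₁, hu₁, u₂, hu₂, rfl⟩ := Submodule.mem_sup.mp hw
    have h1 := horth u₁ (hU₁ hu₁) u₂ (hU₂ hu₂)
    have h2 := hts₁ u₁ hu₁
    have h3 := hts₂ u₂ hu₂
    unfold QuadraticMap.polar at h1
    rw [h2, h3, sub_zero, sub_zero] at h1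
    exact h1
  · -- invariant
    rintro _ ⟨w, hw, rfl⟩
    obtain ⟨u₁, hu₁, u₂, hu₂, rfl⟩ := Submodule.mem_sup.mp hw
    rw [map_add]
    apply Submodule.add_mem
    · apply Submodule.mem_sup_left
      have h1 : u₁ ∈ Fx (x : Matrix (J d) (J d) F) := hU₁ hu₁
      unfold Fx at h1
      rw [LinearMap.mem_ker, LinearMap.sub_apply, LinearMap.id_apply, sub_eq_zero] at h1
      rw [h1]
      exact hu₁
    · apply Submodule.mem_sup_right
      have h1 : u₂ ∈ Fm (x : Matrix (J d) (J d) F) := hU₂ hu₂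
      unfold Fm at h1
      rw [LinearMap.mem_ker, LinearMap.add_apply, LinearMap.id_apply] at h1
      rw [eq_neg_of_add_eq_zero_left h1]
      exact Submodule.neg_mem _ hu₂

end Cfsg.Agent.Lib.Helper33.TPINVGOOD1
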