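import Mathlib
import Cfsg.Agent.Lib.Helper37.TenStmt

/-!
# S5979 / KRANK (helper33): if `A` is not scalar and `B` is invertible then
`rank (A ⊗ₖ B - μ) ≥ b`.
-/

set_option autoImplicit false

namespace Cfsg.Agent.Lib.Helper33.TenKRANK

open scoped Kronecker

universe u

theorem exists_not_mem_span {F : Type u} [Field F] {a : ℕ} (A : Matrix (Fin a) (Fin a) F)
    (hA : ∀ α : F, A ≠ α • (1 : Matrix (Fin a) (Fin a) F)) :
    ∃ v : Fin a → F, A.mulVec v ∉ Submodule.span F {v} := by
  by_contra hcon
  push Not at hcon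
  have h : ∀ v, ¬ LinearIndependent F ![v, Matrix.toLin' A v] := by
    intro v hli
    rw [LinearIndependent.pair_iff] at hli
    obtain ⟨c, hc⟩ := Submodule.mem_span_singleton.mp (hcon v)
    have h1 := hli c (-1) (by rw [Matrix.toLin'_apply, hc]; simp)
    have h2 := h1.2
    simp at h2
  obtain ⟨α, hα⟩ := LinearMap.exists_eq_smul_id_of_forall_notLinearIndependent h
  apply hA α
  have h3 : Matrix.toLin' A = Matrix.toLin' (α • (1 : Matrix (Fin a) (Fin a) F)) := by
    rw [hα]
    apply LinearMap.ext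
    intro x
    simp
  exact Matrix.toLin'.injective h3

theorem main : Cfsg.Agent.Lib.Helper37.TenStmt.KRank.{u} := by
  intro F _ a b A B hB hA μ
  obtain ⟨v, hv⟩ := exists_not_mem_span A hA
  obtain ⟨f, hf, hf'⟩ := Submodule.exists_dual_map_eq_bot_of_notMem hv inferInstance
  have hfv : f v = 0 := by
    have h1 : f v ∈ Submodule.map f (Submodule.span F {v}) :=
      Submodule.mem_map_of_mem (Submodule.mem_span_singleton_self v)
    rw [hf'] at h1
    exact (Submodule.mem_bot F).mp h1
  obtain ⟨M, hM⟩ : ∃ M : Matrix (Fin a × Fin b) (Fin a × Fin b) F,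
      M = A ⊗ₖ B - μ • (1 : Matrix (Fin a × Fin b) (Fin a × Fin b) F) := ⟨_, rfl⟩
  rw [← hM]
  let τ : (Fin b → F) →ₗ[F] (Fin a × Fin b → F) :=
    { toFun := fun w p => v p.1 * w p.2
      map_add' := by intro x y; funext p; simp [mul_add]
      map_smul' := by intro c x; funext p; simp; ring }
  have hτ : ∀ w p, τ w p = v p.1 * w p.2 := fun _ _ => rfl
  have key : ∀ w : Fin b → F, ∀ i j,
      (M.mulVec (τ w)) (i, j) = (A.mulVec v) i * (B.mulVec w) j - μ * (v i * w j) := by
    intro w i j
    rw [hM, Matrix.sub_mulVec, Matrix.smul_mulVec, Matrix.one_mulVec]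
    simp only [Pi.sub_apply, Pi.smul_apply, smul_eq_mul, hτ]
    congr 1
    simp only [Matrix.mulVec, dotProduct, Matrix.kroneckerMap_apply, Fintype.sum_prod_type, hτ]
    rw [Finset.sum_mul_sum]
    refine Finset.sum_congr rfl fun i' _ => Finset.sum_congr rfl fun j' _ => ?_
    ring
  have hinj : Function.Injective (M.mulVecLin ∘ₗ τ) := by
    rw [← LinearMap.ker_eq_bot, LinearMap.ker_eq_bot']
    intro w hw
    have hw' : M.mulVec (τ w) = 0 := hw
    apply Matrix.eq_zero_of_mulVec_eq_zero hB
    funext j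
    have h1 : (fun i => (M.mulVec (τ w)) (i, j)) =
        (B.mulVec w) j • (A.mulVec v) - (μ * w j) • v := by
      funext i
      rw [key]
      simp only [Pi.sub_apply, Pi.smul_apply, smul_eq_mul]
      ring
    have h2 : f (fun i => (M.mulVec (τ w)) (i, j)) = 0 := by
      rw [hw']
      exact map_zero f
    rw [h1, map_sub, map_smul, map_smul, hfv] at h2
    simp only [smul_eq_mul, mul_zero, sub_zero] at h2
    rcases mul_eq_zero.mp h2 with h3 | h3
    · simpa using h3
    · exact absurd h3 hf
  have hr : Module.finrank F (LinearMap.range (M.mulVecLin ∘ₗ τ)) = b := by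
    rw [LinearMap.finrank_range_of_inj hinj]
    simp
  calc b = Module.finrank F (LinearMap.range (M.mulVecLin ∘ₗ τ)) := hr.symm
    _ ≤ Module.finrank F (LinearMap.range M.mulVecLin) :=
        Submodule.finrank_mono (LinearMap.range_comp_le_range _ _)
    _ = M.rank := rfl

end Cfsg.Agent.Lib.Helper33.TenKRANK
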