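import Mathlib
import Cfsg.Agent.Lib.Helper37.TenStmt
import Cfsg.Agent.Lib.Helper37.NonsqPow

/-!
# S5979 / NEG1 (helper33): `q` odd, `(n)_2 < (q - 1)_2`: some `x` of determinant `1` with
`x ^ 2 = d ^ 2` and `rank (x - d) = 1`.
-/

set_option autoImplicit false

namespace Cfsg.Agent.Lib.Helper33.TenNEG1

universe u

theorem exists_pow_eq_neg_one {F : Type u} [Field F] [Fintype F] (h2 : (2 : F) ≠ 0) (n : ℕ)
    (hn : 1 ≤ n) (h : padicValNat 2 n < padicValNat 2 (Fintype.card F - 1)) :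
    ∃ d : F, d ^ n = -1 := by
  have hchar := Cfsg.Agent.Lib.Helper37.NonsqPow.ringChar_ne_two h2
  obtain ⟨w, hw⟩ := FiniteField.exists_nonsquare hchar
  have hw0 : w ≠ 0 := by
    rintro rfl
    exact hw ⟨0, by simp⟩
  have hwp : w ^ (Fintype.card F / 2) = -1 := by
    rcases FiniteField.pow_dichotomy hchar hw0 with h1 | h1
    · exact absurd ((FiniteField.isSquare_iff hchar hw0).mpr h1) hw
    · exact h1
  obtain ⟨s, hs⟩ : ∃ s, s = padicValNat 2 n := ⟨_, rfl⟩
  rw [← hs] at h
  have hn0 : n ≠ 0 := by omega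
  obtain ⟨m, hm⟩ : 2 ^ s ∣ n := hs ▸ pow_padicValNat_dvd
  have hmodd : Odd m := by
    rw [← Nat.not_even_iff_odd]
    intro he
    obtain ⟨k, hk⟩ := he.two_dvd
    apply pow_succ_padicValNat_not_dvd (p := 2) hn0
    rw [← hs]
    exact ⟨k, by rw [hm, hk, pow_succ]; ring⟩
  obtain ⟨N', hN'⟩ : 2 ^ (s + 1) ∣ Fintype.card F - 1 :=
    (pow_dvd_pow 2 (by omega)).trans pow_padicValNat_dvd
  have hq : 0 < Fintype.card F := Fintype.card_pos
  have hhalf : Fintype.card F / 2 = 2 ^ s * N' := by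
    have h3 : Fintype.card F - 1 = 2 * (2 ^ s * N') := by
      rw [hN', pow_succ]; ring
    omega
  refine ⟨w ^ N', ?_⟩
  rw [hm, ← pow_mul, show N' * (2 ^ s * m) = (2 ^ s * N') * m by ring, pow_mul, ← hhalf, hwp]
  exact hmodd.neg_one_pow

theorem main : Cfsg.Agent.Lib.Helper37.TenStmt.Neg1.{u} := by
  classical
  intro F _ _ h2 n hn h
  obtain ⟨d, hd⟩ := exists_pow_eq_neg_one h2 n hn h
  have hd0 : d ≠ 0 := by
    rintro rfl
    rw [zero_pow (by omega)] at hd
    have : (1 : F) = 0 := by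
      have h3 := congrArg (fun t : F => -t) hd
      simpa using h3.symm
    exact one_ne_zero this
  let i0 : Fin n := ⟨0, by omega⟩
  let D : Matrix (Fin n) (Fin n) F := Matrix.diagonal (fun i => if i = i0 then (-1 : F) else 1)
  refine ⟨d, d • D, ?_, ?_, ?_⟩
  · rw [Matrix.det_smul, Fintype.card_fin, hd, Matrix.det_diagonal, Finset.prod_ite_eq']
    simp
  · rw [smul_pow]
    congr 1
    show (Matrix.diagonal (fun i => if i = i0 then (-1 : F) else 1)) ^ 2 = 1
    rw [Matrix.diagonal_pow, ← Matrix.diagonal_one]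
    congr 1
    funext i
    by_cases hi : i = i0 <;> simp [hi]
  · have h3 : d • D - d • (1 : Matrix (Fin n) (Fin n) F) =
        Matrix.diagonal (fun i => if i = i0 then (-2 * d : F) else 0) := by
      show d • (Matrix.diagonal (fun i => if i = i0 then (-1 : F) else 1)) - d • 1 = _
      rw [← Matrix.diagonal_one, ← Matrix.diagonal_smul, ← Matrix.diagonal_smul,
        Matrix.diagonal_sub]
      congr 1
      funext i
      by_cases hi : i = i0
      · simp only [hi, Pi.smul_apply, if_true, smul_eq_mul]; ring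
      · simp only [hi, Pi.smul_apply, if_false, smul_eq_mul]; ring
    rw [h3, Matrix.rank_diagonal, Fintype.card_eq_one_iff]
    have hne : (-2 * d : F) ≠ 0 := mul_ne_zero (neg_ne_zero.mpr h2) hd0
    refine ⟨⟨i0, by rw [if_pos rfl]; exact hne⟩, ?_⟩
    rintro ⟨y, hy⟩
    apply Subtype.ext
    show y = i0
    by_contra hyi
    exact hy (by simp [hyi])

end Cfsg.Agent.Lib.Helper33.TenNEG1
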