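import Cfsg.Agent.Lib.Helper33.SecFusion

set_option autoImplicit false
set_option linter.unusedSectionVars false
set_option linter.style.haveILetI false

namespace Cfsg.Agent.Lib.Helper33.TripleFac

open Cfsg
open Cfsg.Agent.Lib.Helper33.Conj
open Cfsg.Agent.Lib.Helper33.WellPlaced
open Cfsg.Agent.Lib.Helper33.Control
open Cfsg.Agent.Lib.Helper33.Control2
open Cfsg.Agent.Lib.Helper33.Alperin
open Cfsg.Agent.Lib.Helper33.FamControl
open Cfsg.Agent.Lib.Helper33.GenLocal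
open Cfsg.Agent.Lib.Helper33.FocalLocal
open Cfsg.Agent.Lib.Helper33.Sections
open Cfsg.Agent.Lib.Helper33.PCore
open Cfsg.Agent.Lib.Helper33.SecBase
open Cfsg.Agent.Lib.Helper33.SecFusion

universe u

section Ncl

variable {X : Type*} [Group X]

/-- the subgroup generated by the `N`-conjugates of the elements of `Z` -/
def ncl (N Z : Subgroup X) : Subgroup X :=
  Subgroup.closure {y | ∃ n ∈ N, ∃ z ∈ Z, y = n * z * n⁻¹}

theorem conj_mem_ncl {N Z : Subgroup X} {n z : X} (hn : n ∈ N) (hz : z ∈ Z) :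
    n * z * n⁻¹ ∈ ncl N Z :=
  Subgroup.subset_closure ⟨n, hn, z, hz, rfl⟩

theorem le_ncl (N Z : Subgroup X) : Z ≤ ncl N Z := by
  intro z hz
  have h := conj_mem_ncl (N.one_mem) hz
  rwa [one_mul, inv_one, mul_one] at h

theorem ncl_le {N Z B : Subgroup X} (h : ∀ n ∈ N, ∀ z ∈ Z, n * z * n⁻¹ ∈ B) : ncl N Z ≤ B := by
  unfold ncl
  rw [Subgroup.closure_le]
  rintro _ ⟨n, hn, z, hz, rfl⟩
  exact h n hn z hz

theorem ncl_mono {N N' Z : Subgroup X} (h : N ≤ N') : ncl N Z ≤ ncl N' Z :=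
  ncl_le (fun _ hn _ hz => conj_mem_ncl (h hn) hz)

/-- To show that conjugation by `g` maps `ncl N Z` into `B` it suffices to check generators. -/
theorem conj_ncl_mem {N Z B : Subgroup X} {g : X}
    (h : ∀ n ∈ N, ∀ z ∈ Z, g * (n * z * n⁻¹) * g⁻¹ ∈ B) :
    ∀ a ∈ ncl N Z, g * a * g⁻¹ ∈ B := by
  intro a ha
  have h1 : ncl N Z ≤ B.comap (MulAut.conj g).toMonoidHom :=
    ncl_le (fun n hn z hz => h n hn z hz)
  exact h1 ha

theorem ncl_conj_mem {N Z : Subgroup X} {n : X} (hn : n ∈ N) :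
    ∀ a ∈ ncl N Z, n * a * n⁻¹ ∈ ncl N Z :=
  conj_ncl_mem (fun m hm z hz => by
    have e : n * (m * z * m⁻¹) * n⁻¹ = (n * m) * z * (n * m)⁻¹ := by group
    rw [e]
    exact conj_mem_ncl (N.mul_mem hn hm) hz)

theorem map_ncl {Y : Type*} [Group Y] (f : X →* Y) (N Z : Subgroup X) :
    (ncl N Z).map f = ncl (N.map f) (Z.map f) := by
  apply le_antisymm
  · rw [Subgroup.map_le_iff_le_comap]
    apply ncl_le
    intro n hn z hz
    show f (n * z * n⁻¹) ∈ ncl (N.map f) (Z.map f)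
    rw [map_mul, map_mul, map_inv]
    exact conj_mem_ncl ⟨n, hn, rfl⟩ ⟨z, hz, rfl⟩
  · apply ncl_le
    rintro _ ⟨n, hn, rfl⟩ _ ⟨z, hz, rfl⟩
    exact ⟨n * z * n⁻¹, conj_mem_ncl hn hz, by rw [map_mul, map_mul, map_inv]⟩

theorem normalClosure_map_eq (N Z : Subgroup X) (hZN : Z ≤ N) :
    (Subgroup.normalClosure ((Z.subgroupOf N : Subgroup ↥N) : Set ↥N)).map N.subtype =
      ncl N Z := by
  apply le_antisymm
  · rw [Subgroup.map_le_iff_le_comap]
    show Subgroup.closure (Group.conjugatesOfSet ((Z.subgroupOf N : Subgroup ↥N) : Set ↥N)) ≤ _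
    rw [Subgroup.closure_le]
    intro a ha
    rw [Group.mem_conjugatesOfSet_iff] at ha
    obtain ⟨b, hb, hba⟩ := ha
    rw [isConj_iff] at hba
    obtain ⟨c, rfl⟩ := hba
    show ((c * b * c⁻¹ : ↥N) : X) ∈ ncl N Z
    have hb' : (b : X) ∈ Z := Subgroup.mem_subgroupOf.mp hb
    exact conj_mem_ncl c.2 hb'
  · apply ncl_le
    intro n hn z hz
    have hz' : (⟨z, hZN hz⟩ : ↥N) ∈ Z.subgroupOf N := Subgroup.mem_subgroupOf.mpr hz
    have h1 : (⟨n, hn⟩ : ↥N) * ⟨z, hZN hz⟩ * (⟨n, hn⟩ : ↥N)⁻¹ ∈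
        Subgroup.normalClosure ((Z.subgroupOf N : Subgroup ↥N) : Set ↥N) :=
      Subgroup.normalClosure_normal.conj_mem _ (Subgroup.subset_normalClosure hz') _
    exact ⟨_, h1, rfl⟩

/-- A subgroup generated by commuting elements of order dividing `p` is elementary abelian. -/
theorem isElementaryAbelian_closure {p : ℕ} {s : Set X} (hc : ∀ a ∈ s, ∀ b ∈ s, a * b = b * a)
    (hp : ∀ a ∈ s, a ^ p = 1) : IsElementaryAbelian p (Subgroup.closure s) := by
  have hcomm : ∀ a ∈ Subgroup.closure s, ∀ b ∈ Subgroup.closure s, a * b = b * a := by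
    intro a ha b hb
    have h1 : Subgroup.closure s ≤ Subgroup.centralizer (s : Set X) := by
      rw [Subgroup.closure_le]
      intro x hx
      rw [SetLike.mem_coe, Subgroup.mem_centralizer_iff]
      intro y hy
      exact hc y hy x hx
    have h2 : Subgroup.closure s ≤ Subgroup.centralizer ((Subgroup.closure s : Subgroup X) : Set X) := by
      rw [Subgroup.closure_le]
      intro x hx
      rw [SetLike.mem_coe, Subgroup.mem_centralizer_iff]
      intro y hy
      exact (Subgroup.mem_centralizer_iff.mp (h1 hy) x hx).symm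
    exact (Subgroup.mem_centralizer_iff.mp (h2 ha) b hb).symm
  refine ⟨⟨⟨fun a b => Subtype.ext (hcomm a a.2 b b.2)⟩⟩, ?_⟩
  intro a ha
  induction ha using Subgroup.closure_induction with
  | mem x hx => exact hp x hx
  | one => exact one_pow p
  | mul x y hx hy ihx ihy =>
    rw [(show Commute x y from hcomm x hx y hy).mul_pow, ihx, ihy, one_mul]
  | inv x hx ihx => rw [inv_pow, ihx, inv_one]

end Ncl


section Zf

variable {X : Type*} [Group X]

/-- `Ω₁(Z(T))` -/
def Zf (p : ℕ) (T : Subgroup X) : Subgroup X :=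
  omegaOne p (T ⊓ Subgroup.centralizer (T : Set X))

theorem Zf_le (p : ℕ) (T : Subgroup X) : Zf p T ≤ T ⊓ Subgroup.centralizer (T : Set X) := by
  unfold Zf omegaOne
  rw [Subgroup.closure_le]
  intro x hx
  exact hx.1

theorem Zf_comm (p : ℕ) (T : Subgroup X) {a b : X} (ha : a ∈ Zf p T) (hb : b ∈ Zf p T) :
    a * b = b * a :=
  Subgroup.mem_centralizer_iff.mp (Zf_le p T hb).2 a (Zf_le p T ha).1

theorem Zf_pow (p : ℕ) (T : Subgroup X) {a : X} (ha : a ∈ Zf p T) : a ^ p = 1 := by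
  have h := isElementaryAbelian_closure (p := p)
    (s := {x : X | x ∈ T ⊓ Subgroup.centralizer (T : Set X) ∧ x ^ p = 1})
    (fun a ha b hb => Subgroup.mem_centralizer_iff.mp hb.1.2 a ha.1.1) (fun a ha => ha.2)
  exact h.2 a ha

theorem Zf_map_of_inj (p : ℕ) {Y : Type*} [Group Y] (f : X →* Y) (T : Subgroup X)
    (hinj : ∀ t ∈ T, f t = 1 → t = 1) : (Zf p T).map f = Zf p (T.map f) := by
  unfold Zf omegaOne
  rw [MonoidHom.map_closure]
  congr 1
  ext y
  simp only [Set.mem_image, Set.mem_ofPred_eq, Subgroup.mem_inf]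
  constructor
  · rintro ⟨x, ⟨⟨hxT, hxC⟩, hxp⟩, rfl⟩
    refine ⟨⟨⟨x, hxT, rfl⟩, ?_⟩, by rw [← map_pow, hxp, map_one]⟩
    rw [Subgroup.mem_centralizer_iff]
    rintro _ ⟨t, ht, rfl⟩
    rw [← map_mul, ← map_mul, Subgroup.mem_centralizer_iff.mp hxC t ht]
  · rintro ⟨⟨⟨x, hxT, rfl⟩, hxC⟩, hxp⟩
    refine ⟨x, ⟨⟨hxT, ?_⟩, ?_⟩, rfl⟩
    · rw [Subgroup.mem_centralizer_iff]
      intro t ht
      have h1 := Subgroup.mem_centralizer_iff.mp hxC (f t) ⟨t, ht, rfl⟩
      have h2 : f ((t * x) * (x * t)⁻¹) = 1 := by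
        rw [map_mul, map_inv, map_mul, map_mul, h1, mul_inv_cancel]
      have h3 := hinj _ (T.mul_mem (T.mul_mem ht hxT) (T.inv_mem (T.mul_mem hxT ht))) h2
      exact mul_inv_eq_one.mp h3
    · apply hinj _ (T.pow_mem hxT p)
      rw [map_pow]
      exact hxp

end Zf

section Abstract

variable {p : ℕ} [Fact p.Prime]

/-- the factorization `Y = C_Y(Ω₁Z(T)) N_Y(W(T))` for all Sylow subgroups `T` -/
def FacC (p : ℕ) (W : ∀ (Q : Type u) [Group Q], Subgroup Q) (Y : Type u) [Group Y] : Prop :=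
  ∀ T : Sylow p Y, ∀ x : Y,
    ∃ a ∈ Subgroup.centralizer ((Zf p (T : Subgroup Y) : Subgroup Y) : Set Y),
    ∃ b ∈ Subgroup.normalizer ((inducedFunctor (G := Y) W (T : Subgroup Y) : Subgroup Y) : Set Y),
      x = a * b

/-- the factorization in all constrained sections -/
def HypC (p : ℕ) (W : ∀ (Q : Type u) [Group Q], Subgroup Q) (X : Type u) [Group X] : Prop :=
  ∀ (Y : Type u) [Group Y] [Finite Y], IsSec X Y →
    Subgroup.centralizer ((pCore p Y : Subgroup Y) : Set Y) ≤ pCore p Y → FacC p W Y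

/-- `N(W₂ S)` normalizes the normal closure of `Ω₁Z(S)` in `N(W₁ S)`. -/
def Theta (p : ℕ) (W₁ W₂ : ∀ (Q : Type u) [Group Q], Subgroup Q) (X : Type u) [Group X] : Prop :=
  ∀ S : Sylow p X, Zf p (S : Subgroup X) ≤ inducedFunctor (G := X) W₁ (S : Subgroup X) ⊓
      inducedFunctor (G := X) W₂ (S : Subgroup X) →
    ∀ g ∈ Subgroup.normalizer ((inducedFunctor (G := X) W₂ (S : Subgroup X) : Subgroup X) : Set X),
    ∀ a ∈ ncl (Subgroup.normalizer
        ((inducedFunctor (G := X) W₁ (S : Subgroup X) : Subgroup X) : Set X)) (Zf p (S : Subgroup X)),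
      g * a * g⁻¹ ∈ ncl (Subgroup.normalizer
        ((inducedFunctor (G := X) W₁ (S : Subgroup X) : Subgroup X) : Set X)) (Zf p (S : Subgroup X))

theorem facC_equiv {W : ∀ (Q : Type u) [Group Q], Subgroup Q} (hW : IsCharPFunctor.{u} p W)
    {Y₁ Y₂ : Type u} [Group Y₁] [Group Y₂] [Finite Y₁] (e : Y₁ ≃* Y₂) (h : FacC p W Y₁) :
    FacC p W Y₂ := by
  have hfin : Finite Y₂ := Finite.of_equiv Y₁ e.toEquiv
  intro T x
  have hsurj : Function.Surjective e.symm.toMonoidHom := e.symm.surjective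
  let T₁ : Sylow p Y₁ := T.mapSurjective hsurj
  have hT₁ : (T₁ : Subgroup Y₁) = (T : Subgroup Y₂).map e.symm.toMonoidHom :=
    Sylow.coe_mapSurjective hsurj T
  have hT₁e : (T₁ : Subgroup Y₁).map e.toMonoidHom = (T : Subgroup Y₂) := by
    rw [hT₁, Subgroup.map_map]
    have : e.toMonoidHom.comp e.symm.toMonoidHom = MonoidHom.id Y₂ := by
      ext y
      simp
    rw [this, Subgroup.map_id]
  obtain ⟨a, ha, b, hb, hab⟩ := h T₁ (e.symm x)
  refine ⟨e a, ?_, e b, ?_, ?_⟩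
  · have hZ : Zf p (T : Subgroup Y₂) = (Zf p (T₁ : Subgroup Y₁)).map e.toMonoidHom := by
      rw [Zf_map_of_inj p e.toMonoidHom _ (fun t _ ht => e.injective (ht.trans (map_one e).symm)),
        hT₁e]
    rw [hZ, Subgroup.mem_centralizer_iff]
    rintro _ ⟨z, hz, rfl⟩
    show e z * e a = e a * e z
    rw [← map_mul, ← map_mul, Subgroup.mem_centralizer_iff.mp ha z hz]
  · have hV : inducedFunctor (G := Y₂) W (T : Subgroup Y₂) =
        (inducedFunctor (G := Y₁) W (T₁ : Subgroup Y₁)).map e.toMonoidHom := by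
      rw [← inducedFunctor_map_equiv hW e _ T₁.2, hT₁e]
    rw [hV]
    exact Subgroup.le_normalizer_map e.toMonoidHom ⟨b, hb, rfl⟩
  · rw [← map_mul, ← hab]
    simp


theorem theta_sub {W₁ W₂ : ∀ (Q : Type u) [Group Q], Subgroup Q} (hW₁ : IsCharPFunctor.{u} p W₁)
    (hW₂ : IsCharPFunctor.{u} p W₂) {X : Type u} [Group X] [Finite X] (S : Sylow p X)
    (H : Subgroup X) (hSH : (S : Subgroup X) ≤ H) (hθ : Theta p W₁ W₂ ↥H)
    (hZ : Zf p (S : Subgroup X) ≤ inducedFunctor (G := X) W₁ (S : Subgroup X) ⊓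
      inducedFunctor (G := X) W₂ (S : Subgroup X)) :
    ∀ g ∈ H ⊓ Subgroup.normalizer
        ((inducedFunctor (G := X) W₂ (S : Subgroup X) : Subgroup X) : Set X),
    ∀ a ∈ ncl (H ⊓ Subgroup.normalizer
        ((inducedFunctor (G := X) W₁ (S : Subgroup X) : Subgroup X) : Set X)) (Zf p (S : Subgroup X)),
      g * a * g⁻¹ ∈ ncl (H ⊓ Subgroup.normalizer
        ((inducedFunctor (G := X) W₁ (S : Subgroup X) : Subgroup X) : Set X))
        (Zf p (S : Subgroup X)) := by
  let SH : Sylow p ↥H := S.subtype hSH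
  have hSHmap : (SH : Subgroup ↥H).map H.subtype = (S : Subgroup X) := by
    have h0 : (SH : Subgroup ↥H) = (S : Subgroup X).subgroupOf H := Sylow.coe_subtype S hSH
    rw [h0]
    exact Subgroup.map_subgroupOf_eq_of_le hSH
  have hinj : ∀ t ∈ (SH : Subgroup ↥H), H.subtype t = 1 → t = 1 := fun t _ h => Subtype.ext h
  have hW : ∀ W : ∀ (Q : Type u) [Group Q], Subgroup Q, IsCharPFunctor.{u} p W →
      (inducedFunctor (G := ↥H) W (SH : Subgroup ↥H)).map H.subtype =
        inducedFunctor (G := X) W (S : Subgroup X) := by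
    intro W hW
    rw [← inducedFunctor_map_of_inj hW H.subtype _ SH.2 hinj, hSHmap]
  have hZmap : (Zf p (SH : Subgroup ↥H)).map H.subtype = Zf p (S : Subgroup X) := by
    rw [Zf_map_of_inj p H.subtype _ hinj, hSHmap]
  have hN : ∀ W : ∀ (Q : Type u) [Group Q], Subgroup Q, IsCharPFunctor.{u} p W →
      (Subgroup.normalizer ((inducedFunctor (G := ↥H) W (SH : Subgroup ↥H) : Subgroup ↥H) :
        Set ↥H)).map H.subtype = H ⊓ Subgroup.normalizer
          ((inducedFunctor (G := X) W (S : Subgroup X) : Subgroup X) : Set X) := by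
    intro W hW'
    rw [map_normalizer_of_injective H.subtype H.subtype_injective, Subgroup.range_subtype,
      hW W hW']
  have hZ' : Zf p (SH : Subgroup ↥H) ≤ inducedFunctor (G := ↥H) W₁ (SH : Subgroup ↥H) ⊓
      inducedFunctor (G := ↥H) W₂ (SH : Subgroup ↥H) := by
    rw [← Subgroup.map_le_map_iff_of_injective H.subtype_injective,
      Subgroup.map_inf _ _ _ H.subtype_injective, hZmap, hW W₁ hW₁, hW W₂ hW₂]
    exact hZ
  have hncl : (ncl (Subgroup.normalizer ((inducedFunctor (G := ↥H) W₁ (SH : Subgroup ↥H) :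
      Subgroup ↥H) : Set ↥H)) (Zf p (SH : Subgroup ↥H))).map H.subtype =
      ncl (H ⊓ Subgroup.normalizer
        ((inducedFunctor (G := X) W₁ (S : Subgroup X) : Subgroup X) : Set X))
        (Zf p (S : Subgroup X)) := by
    rw [map_ncl, hN W₁ hW₁, hZmap]
  intro g hg a ha
  rw [← hncl] at ha ⊢
  obtain ⟨a', ha', rfl⟩ := ha
  have hg' : (⟨g, hg.1⟩ : ↥H) ∈ Subgroup.normalizer
      ((inducedFunctor (G := ↥H) W₂ (SH : Subgroup ↥H) : Subgroup ↥H) : Set ↥H) := by
    have h1 : g ∈ (Subgroup.normalizer ((inducedFunctor (G := ↥H) W₂ (SH : Subgroup ↥H) :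
        Subgroup ↥H) : Set ↥H)).map H.subtype := by
      rw [hN W₂ hW₂]
      exact hg
    obtain ⟨g', hg', hgg⟩ := h1
    have e : g' = ⟨g, hg.1⟩ := Subtype.ext hgg
    rw [← e]
    exact hg'
  exact ⟨⟨g, hg.1⟩ * a' * (⟨g, hg.1⟩ : ↥H)⁻¹, hθ SH hZ' _ hg' a' ha', rfl⟩

theorem theta_quot {W₁ W₂ : ∀ (Q : Type u) [Group Q], Subgroup Q} (hW₁ : IsCharPFunctor.{u} p W₁)
    (hW₂ : IsCharPFunctor.{u} p W₂) {X : Type u} [Group X] [Finite X] (S : Sylow p X)
    (K : Subgroup X) [K.Normal] (hK : (Nat.card K).Coprime p) (hθ : Theta p W₁ W₂ (X ⧸ K))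
    (hZ : Zf p (S : Subgroup X) ≤ inducedFunctor (G := X) W₁ (S : Subgroup X) ⊓
      inducedFunctor (G := X) W₂ (S : Subgroup X)) :
    ∀ g ∈ Subgroup.normalizer
        ((inducedFunctor (G := X) W₂ (S : Subgroup X) : Subgroup X) : Set X),
    ∀ a ∈ ncl (Subgroup.normalizer
        ((inducedFunctor (G := X) W₁ (S : Subgroup X) : Subgroup X) : Set X)) (Zf p (S : Subgroup X)),
      QuotientGroup.mk' K (g * a * g⁻¹) ∈ (ncl (Subgroup.normalizer
        ((inducedFunctor (G := X) W₁ (S : Subgroup X) : Subgroup X) : Set X))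
        (Zf p (S : Subgroup X))).map (QuotientGroup.mk' K) := by
  have hp : p.Prime := Fact.out
  have hπ : Function.Surjective (QuotientGroup.mk' K) := QuotientGroup.mk'_surjective K
  let Sb : Sylow p (X ⧸ K) := S.mapSurjective hπ
  have hSb : (Sb : Subgroup (X ⧸ K)) = (S : Subgroup X).map (QuotientGroup.mk' K) :=
    Sylow.coe_mapSurjective hπ S
  have hdisj : (S : Subgroup X) ⊓ K = ⊥ := by
    obtain ⟨a, ha⟩ := S.2.exists_card_eq
    have hcop : (Nat.card (S : Subgroup X)).Coprime (Nat.card K) := by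
      rw [ha]; exact Nat.Coprime.pow_left a hK.symm
    exact (Subgroup.disjoint_of_coprime_natCard hcop).eq_bot
  have hSK : ∀ t ∈ (S : Subgroup X), QuotientGroup.mk' K t = 1 → t = 1 := by
    intro t ht h1
    have htK : t ∈ K := (QuotientGroup.eq_one_iff t).mp h1
    have h2 : t ∈ (S : Subgroup X) ⊓ K := ⟨ht, htK⟩
    rw [hdisj] at h2
    exact Subgroup.mem_bot.mp h2
  have hWS : ∀ W : ∀ (Q : Type u) [Group Q], Subgroup Q, IsCharPFunctor.{u} p W →
      inducedFunctor (G := X ⧸ K) W (Sb : Subgroup (X ⧸ K)) =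
        (inducedFunctor (G := X) W (S : Subgroup X)).map (QuotientGroup.mk' K) := by
    intro W hW
    rw [hSb]
    exact inducedFunctor_map_of_inj hW _ _ S.2 hSK
  have hZb : Zf p (Sb : Subgroup (X ⧸ K)) = (Zf p (S : Subgroup X)).map (QuotientGroup.mk' K) := by
    rw [hSb, Zf_map_of_inj p _ _ hSK]
  have hNb : ∀ W : ∀ (Q : Type u) [Group Q], Subgroup Q, IsCharPFunctor.{u} p W →
      Subgroup.normalizer ((inducedFunctor (G := X ⧸ K) W (Sb : Subgroup (X ⧸ K)) :
        Subgroup (X ⧸ K)) : Set (X ⧸ K)) =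
      (Subgroup.normalizer ((inducedFunctor (G := X) W (S : Subgroup X) : Subgroup X) :
        Set X)).map (QuotientGroup.mk' K) := by
    intro W hW
    rw [hWS W hW]
    exact normalizer_map_of_coprime K hK _
      (S.2.to_le ((isConjugacyFunctor_induced hW X (S : Subgroup X) S.2).1))
  have hZ' : Zf p (Sb : Subgroup (X ⧸ K)) ≤ inducedFunctor (G := X ⧸ K) W₁ (Sb : Subgroup (X ⧸ K)) ⊓
      inducedFunctor (G := X ⧸ K) W₂ (Sb : Subgroup (X ⧸ K)) := by
    rw [hZb, hWS W₁ hW₁, hWS W₂ hW₂]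
    exact le_inf (Subgroup.map_mono (hZ.trans inf_le_left))
      (Subgroup.map_mono (hZ.trans inf_le_right))
  intro g hg a ha
  have h1 := hθ Sb hZ' (QuotientGroup.mk' K g) (by rw [hNb W₂ hW₂]; exact ⟨g, hg, rfl⟩)
    (QuotientGroup.mk' K a) (by rw [hNb W₁ hW₁, hZb, ← map_ncl]; exact ⟨a, ha, rfl⟩)
  rw [hNb W₁ hW₁, hZb, ← map_ncl] at h1
  rw [map_mul, map_mul, map_inv]
  exact h1


/-- Glauberman: under the factorization hypotheses, `N(W₂ S)` normalizes the normal closure of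
`Ω₁Z(S)` in `N(W₁ S)`. -/
theorem theta_main : ∀ n : ℕ, ∀ (X : Type u) [Group X] [Finite X], Nat.card X = n →
    ∀ (W₁ W₂ : ∀ (Q : Type u) [Group Q], Subgroup Q), IsCharPFunctor.{u} p W₁ →
    IsCharPFunctor.{u} p W₂ → HypC p W₁ X → HypC p W₂ X → Theta p W₁ W₂ X := by
  intro n
  induction n using Nat.strong_induction_on with
  | _ n ih =>
  intro X _ _ hn W₁ W₂ hW₁ hW₂ hyp₁ hyp₂ S hZ
  have hp : p.Prime := Fact.out
  have ihsub : ∀ N : Subgroup X, N ≠ ⊤ → ∀ (U₁ U₂ : ∀ (Q : Type u) [Group Q], Subgroup Q),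
      IsCharPFunctor.{u} p U₁ → IsCharPFunctor.{u} p U₂ → HypC p U₁ X → HypC p U₂ X →
      Theta p U₁ U₂ ↥N := by
    intro N hN U₁ U₂ hU₁ hU₂ h₁ h₂
    have hcard : Nat.card ↥N < n := by
      rw [← hn, ← Subgroup.card_top (G := X)]
      exact card_lt_card_of_lt' (lt_top_iff_ne_top.mpr hN)
    exact ih _ hcard ↥N rfl U₁ U₂ hU₁ hU₂
      (fun Y _ _ hsec hc => h₁ Y (IsSec.of_subgroup N hsec) hc)
      (fun Y _ _ hsec hc => h₂ Y (IsSec.of_subgroup N hsec) hc)
  have ihquot : ∀ (N : Subgroup X) [N.Normal], N ≠ ⊥ → Theta p W₁ W₂ (X ⧸ N) := by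
    intro N _ hN
    have hcard : Nat.card (X ⧸ N) < n := by
      have h1 := Subgroup.card_eq_card_quotient_mul_card_subgroup N
      have h2 : 1 < Nat.card N := N.one_lt_card_iff_ne_bot.mpr hN
      have h3 : 0 < Nat.card (X ⧸ N) := Nat.card_pos
      rw [← hn, h1]
      nlinarith
    exact ih _ hcard (X ⧸ N) rfl W₁ W₂ hW₁ hW₂
      (fun Y _ _ hsec hc => hyp₁ Y (IsSec.of_quotient N hsec) hc)
      (fun Y _ _ hsec hc => hyp₂ Y (IsSec.of_quotient N hsec) hc)
  have hSN₁ : (S : Subgroup X) ≤ Subgroup.normalizer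
      ((inducedFunctor (G := X) W₁ (S : Subgroup X) : Subgroup X) : Set X) :=
    le_trans Subgroup.le_normalizer
      (normalizer_le_normalizer_W (isConjugacyFunctor_induced hW₁ X) S.2)
  have hSN₂ : (S : Subgroup X) ≤ Subgroup.normalizer
      ((inducedFunctor (G := X) W₂ (S : Subgroup X) : Subgroup X) : Set X) :=
    le_trans Subgroup.le_normalizer
      (normalizer_le_normalizer_W (isConjugacyFunctor_induced hW₂ X) S.2)
  have hV₂S : inducedFunctor (G := X) W₂ (S : Subgroup X) ≤ (S : Subgroup X) :=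
    (isConjugacyFunctor_induced hW₂ X (S : Subgroup X) S.2).1
  have hsubθ := fun (H : Subgroup X) (hSH : (S : Subgroup X) ≤ H) (hH : H ≠ ⊤) =>
    theta_sub hW₁ hW₂ S H hSH (ihsub H hH W₁ W₂ hW₁ hW₂ hyp₁ hyp₂) hZ
  have hsubθ' := fun (H : Subgroup X) (hSH : (S : Subgroup X) ≤ H) (hH : H ≠ ⊤) =>
    theta_sub hW₂ hW₁ S H hSH (ihsub H hH W₂ W₁ hW₂ hW₁ hyp₂ hyp₁)
      (le_inf (hZ.trans inf_le_right) (hZ.trans inf_le_left))
  have hquotθ := fun (K : Subgroup X) (hKn : K.Normal) (hK : (Nat.card K).Coprime p)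
      (hKne : K ≠ ⊥) => theta_quot hW₁ hW₂ S K hK (ihquot K hKne) hZ
  have hfac₁ := fun (hC : Subgroup.centralizer ((pCore p X : Subgroup X) : Set X) ≤ pCore p X) =>
    hyp₁ X (isSec_refl X) hC S
  clear ihsub ihquot ih hyp₁ hyp₂
  generalize inducedFunctor (G := X) W₁ (S : Subgroup X) = V₁ at *
  generalize inducedFunctor (G := X) W₂ (S : Subgroup X) = V₂ at *
  generalize hZdef : Zf p (S : Subgroup X) = Z at *
  by_cases hN₁ : Subgroup.normalizer (V₁ : Set X) = ⊤
  · intro g _ a ha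
    exact ncl_conj_mem (by rw [hN₁]; trivial) a ha
  by_cases hN₂ : Subgroup.normalizer (V₂ : Set X) = ⊤
  swap
  · have h2 := hsubθ _ hSN₂ hN₂
    have h1 := hsubθ' _ hSN₁ hN₁
    have hB : ncl (Subgroup.normalizer (V₁ : Set X)) Z =
        ncl (Subgroup.normalizer (V₂ : Set X) ⊓ Subgroup.normalizer (V₁ : Set X)) Z := by
      apply le_antisymm _ (ncl_mono inf_le_right)
      apply ncl_le
      intro n hn z hz
      rw [inf_comm]
      exact h1 n ⟨hn, hn⟩ z (le_ncl _ _ hz)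
    intro g hg a ha
    rw [hB] at ha ⊢
    exact h2 g ⟨hg, hg⟩ a ha
  have hV₂n : V₂.Normal := Subgroup.normalizer_eq_top_iff.mp hN₂
  have hPn : (pCore p X).Normal := Cfsg.Agent.Lib.Helper33.PCore.pCore_normal p
  have hV₂P : V₂ ≤ pCore p X := le_pCore (S.2.to_le hV₂S)
  have hZP : Z ≤ pCore p X := (hZ.trans inf_le_right).trans hV₂P
  have hPS : pCore p X ≤ (S : Subgroup X) := pCore_le_sylow S
  have hAP : ncl (Subgroup.normalizer (V₁ : Set X)) Z ≤ pCore p X :=
    ncl_le (fun n _ z hz => hPn.conj_mem z (hZP hz) n)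
  suffices hall : ∀ g : X, ∀ z ∈ Z, g * z * g⁻¹ ∈ ncl (Subgroup.normalizer (V₁ : Set X)) Z by
    intro g _ a ha
    refine conj_ncl_mem (fun n hn z hz => ?_) a ha
    have e : g * (n * z * n⁻¹) * g⁻¹ = (g * n) * z * (g * n)⁻¹ := by group
    rw [e]
    exact hall _ z hz
  by_cases hK : pPrimeCore p X = ⊥
  swap
  · have hKn := pPrimeCore_normal (G := X) p
    have hKc := pPrimeCore_card_coprime (G := X) p
    have hq := hquotθ (pPrimeCore p X) hKn hKc hK
    intro g z hz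
    obtain ⟨a, ha, hag⟩ := hq g (by rw [hN₂]; trivial) z (le_ncl _ _ hz)
    have h2 : a⁻¹ * (g * z * g⁻¹) ∈ pPrimeCore p X := QuotientGroup.eq.mp hag
    have h3 : a⁻¹ * (g * z * g⁻¹) ∈ pCore p X :=
      Subgroup.mul_mem _ (Subgroup.inv_mem _ (hAP ha)) (hPn.conj_mem z (hZP hz) g)
    have hdisj : pCore p X ⊓ pPrimeCore p X = ⊥ := by
      obtain ⟨k, hk⟩ := (pCore_isPGroup (p := p) (G := X)).exists_card_eq
      have hcop : (Nat.card (pCore p X)).Coprime (Nat.card (pPrimeCore p X)) := by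
        rw [hk]; exact Nat.Coprime.pow_left k hKc.symm
      exact (Subgroup.disjoint_of_coprime_natCard hcop).eq_bot
    have h4 : a⁻¹ * (g * z * g⁻¹) ∈ pCore p X ⊓ pPrimeCore p X := ⟨h3, h2⟩
    rw [hdisj] at h4
    rw [← inv_mul_eq_one.mp (Subgroup.mem_bot.mp h4)]
    exact ha
  by_cases hC : Subgroup.centralizer ((pCore p X : Subgroup X) : Set X) ≤ pCore p X
  · intro g z hz
    obtain ⟨a, ha, b, hb, hab⟩ := hfac₁ hC g⁻¹
    have hg : g = b⁻¹ * a⁻¹ := by rw [← mul_inv_rev, ← hab, inv_inv]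
    have haz : z * a = a * z := Subgroup.mem_centralizer_iff.mp ha z hz
    have e : g * z * g⁻¹ = b⁻¹ * z * b⁻¹⁻¹ := by
      rw [hg]
      calc b⁻¹ * a⁻¹ * z * (b⁻¹ * a⁻¹)⁻¹ = b⁻¹ * (a⁻¹ * (z * a)) * b := by group
        _ = b⁻¹ * (a⁻¹ * (a * z)) * b := by rw [haz]
        _ = b⁻¹ * z * b⁻¹⁻¹ := by group
    rw [e]
    exact conj_mem_ncl (Subgroup.inv_mem _ hb) hz
  · have hSC : ¬ ((S : Subgroup X) ⊓ Subgroup.centralizer ((pCore p X : Subgroup X) : Set X) ≤
        pCore p X) := fun h => hC (centralizer_pCore_le_of_inf_le S hK h)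
    have hCn : (Subgroup.centralizer ((pCore p X : Subgroup X) : Set X)).Normal := inferInstance
    have hDtop : ∀ g : X, g ∈ Subgroup.normalizer ((pCore p X ⊔
        Subgroup.centralizer ((pCore p X : Subgroup X) : Set X) : Subgroup X) : Set X) := by
      intro g
      rw [Subgroup.normalizer_eq_top]
      trivial
    have hQH : Subgroup.normalizer (((S : Subgroup X) ⊓ (pCore p X ⊔
        Subgroup.centralizer ((pCore p X : Subgroup X) : Set X)) : Subgroup X) : Set X) ≠ ⊤ := by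
      intro htop
      have hn : ((S : Subgroup X) ⊓ (pCore p X ⊔
          Subgroup.centralizer ((pCore p X : Subgroup X) : Set X))).Normal :=
        Subgroup.normalizer_eq_top_iff.mp htop
      have h1 : (S : Subgroup X) ⊓ (pCore p X ⊔
          Subgroup.centralizer ((pCore p X : Subgroup X) : Set X)) ≤ pCore p X :=
        le_pCore (S.2.to_inf_left)
      exact hSC (le_trans (inf_le_inf_left _ le_sup_right) h1)
    have hSH : (S : Subgroup X) ≤ Subgroup.normalizer (((S : Subgroup X) ⊓ (pCore p X ⊔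
        Subgroup.centralizer ((pCore p X : Subgroup X) : Set X)) : Subgroup X) : Set X) := by
      intro s hs
      exact normalizer_inf_le _ _ ⟨Subgroup.le_normalizer hs, hDtop s⟩
    have hsyl : IsSylIn p ((S : Subgroup X) ⊓ (pCore p X ⊔
        Subgroup.centralizer ((pCore p X : Subgroup X) : Set X))) (pCore p X ⊔
        Subgroup.centralizer ((pCore p X : Subgroup X) : Set X)) :=
      isSylIn_inf_normal (isSylIn_of_sylow S le_top) le_top (fun g _ => hDtop g)
    have hH := hsubθ _ hSH hQH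
    intro g z hz
    obtain ⟨k, hk, hkg⟩ := frattini_rel hsyl (hDtop g)
    have h1 := hH (k * g) ⟨hkg, by rw [hN₂]; trivial⟩ z (le_ncl _ _ hz)
    have h2 : (k * g) * z * (k * g)⁻¹ ∈ ncl (Subgroup.normalizer (V₁ : Set X)) Z :=
      ncl_mono inf_le_right h1
    have hk' := Subgroup.inv_mem _ hk
    rw [Subgroup.mem_sup_of_normal_right] at hk'
    obtain ⟨u, hu, c, hc, huc⟩ := hk'
    have h3 : (k * g) * z * (k * g)⁻¹ * c = c * ((k * g) * z * (k * g)⁻¹) :=
      Subgroup.mem_centralizer_iff.mp hc _ (hAP h2)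
    have e : g * z * g⁻¹ = u * ((k * g) * z * (k * g)⁻¹) * u⁻¹ := by
      calc g * z * g⁻¹ = k⁻¹ * ((k * g) * z * (k * g)⁻¹) * k⁻¹⁻¹ := by group
        _ = (u * c) * ((k * g) * z * (k * g)⁻¹) * (u * c)⁻¹ := by rw [huc]
        _ = u * (c * ((k * g) * z * (k * g)⁻¹)) * c⁻¹ * u⁻¹ := by group
        _ = u * ((k * g) * z * (k * g)⁻¹ * c) * c⁻¹ * u⁻¹ := by rw [h3]
        _ = u * ((k * g) * z * (k * g)⁻¹) * u⁻¹ := by group
    rw [e]
    exact ncl_conj_mem (hSN₁ (hPS hu)) _ h2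


/-- Reduce `HypC` for abstract sections to the concrete sections `K ⧸ R`. -/
theorem hypC_of_sections {W : ∀ (Q : Type u) [Group Q], Subgroup Q} (hW : IsCharPFunctor.{u} p W)
    {G : Type u} [Group G] [Finite G]
    (h : ∀ (K R : Subgroup G) [(R.subgroupOf K).Normal],
      Subgroup.centralizer ((pCore p (↥K ⧸ R.subgroupOf K) : Subgroup (↥K ⧸ R.subgroupOf K)) :
        Set (↥K ⧸ R.subgroupOf K)) ≤ pCore p (↥K ⧸ R.subgroupOf K) →
      FacC p W (↥K ⧸ R.subgroupOf K)) : HypC p W G := by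
  intro Y _ _ hsec hc
  obtain ⟨K, R, hR, ⟨e⟩⟩ := hsec.exists_equiv
  exact facC_equiv hW e (h K R (constrained_of_equiv p e hc))

theorem isCharPFunctor_pair {W₁ W₂ : ∀ (Q : Type u) [Group Q], Subgroup Q}
    (hW₁ : IsCharPFunctor.{u} p W₁) (hW₂ : IsCharPFunctor.{u} p W₂) :
    ∀ W ∈ ({W₁, W₂} : Set (∀ (Q : Type u) [Group Q], Subgroup Q)), IsCharPFunctor.{u} p W := by
  intro W hW
  rcases hW with rfl | hW
  · exact hW₁
  · rw [Set.mem_singleton_iff] at hW
    rw [hW]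
    exact hW₂

/-- The normal closure `A` of `Ω₁Z(S)` in `N(W₁ S)` is an elementary abelian strongly closed
subgroup of `S` whose normalizer controls strong fusion. -/
theorem triple_final {W₁ W₂ : ∀ (Q : Type u) [Group Q], Subgroup Q}
    (hW₁ : IsCharPFunctor.{u} p W₁) (hW₂ : IsCharPFunctor.{u} p W₂)
    {G : Type u} [Group G] [Finite G] (S : Sylow p G)
    (hyp₁ : HypC p W₁ G) (hyp₂ : HypC p W₂ G) (hsf : SF p {W₁, W₂} G)
    (hZ : Zf p (S : Subgroup G) ≤ inducedFunctor (G := G) W₁ (S : Subgroup G) ⊓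
      inducedFunctor (G := G) W₂ (S : Subgroup G)) :
    ncl (Subgroup.normalizer ((inducedFunctor (G := G) W₁ (S : Subgroup G) : Subgroup G) : Set G))
        (Zf p (S : Subgroup G)) ≤ (S : Subgroup G) ∧
      IsElementaryAbelian p (ncl (Subgroup.normalizer
        ((inducedFunctor (G := G) W₁ (S : Subgroup G) : Subgroup G) : Set G))
        (Zf p (S : Subgroup G))) ∧
      IsStronglyClosed (ncl (Subgroup.normalizer
        ((inducedFunctor (G := G) W₁ (S : Subgroup G) : Subgroup G) : Set G))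
        (Zf p (S : Subgroup G))) (S : Subgroup G) ∧
      ControlsStrongFusion p (ncl (Subgroup.normalizer
        ((inducedFunctor (G := G) W₁ (S : Subgroup G) : Subgroup G) : Set G))
        (Zf p (S : Subgroup G))) := by
  have hθ := theta_main (Nat.card G) G rfl W₁ W₂ hW₁ hW₂ hyp₁ hyp₂ S hZ
  have hV₁S : inducedFunctor (G := G) W₁ (S : Subgroup G) ≤ (S : Subgroup G) :=
    (isConjugacyFunctor_induced hW₁ G (S : Subgroup G) S.2).1
  have h𝓦 := isCharPFunctor_pair hW₁ hW₂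
  unfold SF at hsf
  rw [familyControls_iff (ind_isConjugacyFunctor h𝓦 G) (isSylIn_of_sylow S le_top)] at hsf
  have hZ₁ := hZ.trans inf_le_left
  have hZS := Zf_le p (S : Subgroup G)
  have hZpow : ∀ z ∈ Zf p (S : Subgroup G), z ^ p = 1 := fun z hz => Zf_pow p _ hz
  clear hZ hyp₁ hyp₂
  generalize hV₁ : inducedFunctor (G := G) W₁ (S : Subgroup G) = V₁ at *
  generalize Zf p (S : Subgroup G) = Z at *
  have hN₁A : ∀ n ∈ Subgroup.normalizer (V₁ : Set G),
      n ∈ Subgroup.normalizer ((ncl (Subgroup.normalizer (V₁ : Set G)) Z : Subgroup G) : Set G) :=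
    fun n hn => mem_normalizer_of_forall_conj_mem (ncl_conj_mem hn)
  have hN₂A : ∀ n ∈ Subgroup.normalizer
      ((inducedFunctor (G := G) W₂ (S : Subgroup G) : Subgroup G) : Set G),
      n ∈ Subgroup.normalizer ((ncl (Subgroup.normalizer (V₁ : Set G)) Z : Subgroup G) : Set G) :=
    fun n hn => mem_normalizer_of_forall_conj_mem (hθ n hn)
  have hgen : ∀ n ∈ Subgroup.normalizer (V₁ : Set G), ∀ z ∈ Z,
      n * z * n⁻¹ ∈ V₁ ⊓ Subgroup.centralizer (V₁ : Set G) := by
    intro n hn z hz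
    have hzC : z ∈ Subgroup.centralizer (V₁ : Set G) :=
      Subgroup.centralizer_le (SetLike.coe_subset_coe.mpr hV₁S) (hZS hz).2
    refine ⟨(Subgroup.mem_normalizer_iff.mp hn z).mp (hZ₁ hz), ?_⟩
    exact (Subgroup.mem_normalizer_iff.mp (normalizer_le_normalizer_centralizer V₁ hn) z).mp hzC
  have hAle : ncl (Subgroup.normalizer (V₁ : Set G)) Z ≤
      V₁ ⊓ Subgroup.centralizer (V₁ : Set G) := ncl_le hgen
  have hAS : ncl (Subgroup.normalizer (V₁ : Set G)) Z ≤ (S : Subgroup G) :=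
    hAle.trans (inf_le_left.trans hV₁S)
  have hel : IsElementaryAbelian p (ncl (Subgroup.normalizer (V₁ : Set G)) Z) := by
    unfold ncl
    apply isElementaryAbelian_closure
    · rintro _ ⟨n, hn, z, hz, rfl⟩ _ ⟨m, hm, w, hw, rfl⟩
      exact Subgroup.mem_centralizer_iff.mp (hgen m hm w hw).2 _ (hgen n hn z hz).1
    · rintro _ ⟨n, hn, z, hz, rfl⟩
      rw [conj_pow, hZpow z hz, mul_one, mul_inv_cancel]
  have key : ∀ (B : Set G) (k : G), FReach (ind {W₁, W₂} G) ⊤ (S : Subgroup G) B k →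
      k ∈ Subgroup.normalizer
        ((ncl (Subgroup.normalizer (V₁ : Set G)) Z : Subgroup G) : Set G) := by
    intro B k hk
    induction hk with
    | nil B => exact Subgroup.one_mem _
    | cons B W' y h' hW' hy hyB _ ih =>
      obtain ⟨W'', hW'', rfl⟩ := hW'
      rcases hW'' with rfl | hW''
      · have hy2 : y ∈ Subgroup.normalizer
            ((inducedFunctor (G := G) W'' (S : Subgroup G) : Subgroup G) : Set G) := hy.2
        rw [hV₁] at hy2
        exact Subgroup.mul_mem _ ih (hN₁A y hy2)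
      · rw [Set.mem_singleton_iff] at hW''
        subst hW''
        exact Subgroup.mul_mem _ ih (hN₂A y hy.2)
  have hcsf : ∀ A' : Set G, A' ⊆ ((S : Subgroup G) : Set G) →
      ControlsStrongFusionOf (Subgroup.normalizer
        ((ncl (Subgroup.normalizer (V₁ : Set G)) Z : Subgroup G) : Set G)) (S : Subgroup G) A' := by
    intro A' hA'
    refine ⟨hA', fun g hg => ?_⟩
    obtain ⟨g', hr, hga⟩ := hsf A' g trivial hA' hg
    exact ⟨g', key A' g' hr, fun a ha => (hga a ha).symm⟩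
  refine ⟨hAS, hel, ⟨hAS, fun x hx g hgx => ?_⟩, ⟨S, hAS, hcsf⟩⟩
  obtain ⟨n, hn, hnx⟩ := (hcsf {x} (Set.singleton_subset_iff.mpr (hAS hx))).2 g (by
    rintro _ ⟨a, ha, rfl⟩
    rw [Set.mem_singleton_iff] at ha
    rw [ha]
    exact hgx)
  rw [hnx x rfl]
  exact (Subgroup.mem_normalizer_iff.mp hn x).mp hx

end Abstract

end Cfsg.Agent.Lib.Helper33.TripleFac
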